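/-
The subgroups generated by the members commuting with a non-commuting pair in the models `X22`, `X23`:
reflection groups of dimension 6 and 7 over the field with three elements.
-/
import Cfsg.Agent.Fi.R22d
import Cfsg.Agent.Fi.R23d
set_option autoImplicit false

namespace CA.TC
open Cfsg Cfsg.Agent Cfsg.Agent.Orth

theorem realR6 : Real XR6 {g | ∃ v, formQ (id : Fin 6 → Fin 6) v = (2 : ℕ) ∧ g = refl _ v}
    (fun p => refl (formQ id) (vec3 6 (vcR6 p))) :=
  realRefl okR6 id (fun _ => rfl) (polar_formQ fun _ => rfl) (Or.inr rfl) r6d_v r6d_c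

theorem realR7 : Real XR7 {g | ∃ v, formQ (id : Fin 7 → Fin 7) v = (2 : ℕ) ∧ g = refl _ v}
    (fun p => refl (formQ id) (vec3 7 (vcR7 p))) :=
  realRefl okR7 id (fun _ => rfl) (polar_formQ fun _ => rfl) (Or.inr rfl) r7d_v r7d_c

variable {G : Type*} [Group G] {D : Set G} {e : ℕ → G}

theorem Real.subR6 (h : Real X22 D e) : Real XR6 ({y : G | y ∈ D ∧ y ≠ e 0 ∧ Commute (e 0) y} ∩
    {y : G | y ∈ D ∧ y ≠ e 694 ∧ Commute (e 694) y}) (fun p => e (psR6 p + 1)) :=
  h.subL nest22 okR6 r6d_s r6d_s'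

theorem Real.subR7 (h : Real X23 D e) : Real XR7 ({y : G | y ∈ D ∧ y ≠ e 0 ∧ Commute (e 0) y} ∩
    {y : G | y ∈ D ∧ y ≠ e 3511 ∧ Commute (e 3511) y}) (fun p => e (psR7 p + 1)) :=
  h.subL nest23 okR7 r7d_s r7d_s'

end CA.TC
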