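/-
Kernel checkers for the existence of the models (no Mathlib beyond the table API).
-/
import Cfsg.Agent.Fi.Nest
set_option autoImplicit false

namespace CA.TC

/-- Lists of relations `u = v` with a mask of generators normalising the relator. -/
inductive RL where
  | nil : RL
  | cons (m : ℕ) (u v : List ℕ) (rest : RL) : RL

/-- All entries satisfy `P`. -/
def RL.All (P : ℕ → List ℕ → List ℕ → Prop) : RL → Prop
  | .nil => True
  | .cons m u v r => P m u v ∧ RL.All P r

/-- The generators moving `p` down. -/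
noncomputable def dmask (T : Tab) (p : ℕ) (k : ℕ) : ℕ :=
  Nat.rec (nat_lit 0) (fun g ih => Bool.rec (Nat.lor ih (Nat.shiftLeft (nat_lit 1) g)) ih (Nat.ble p (T.act g p))) k

/-- Check of the relations at the point `p`. -/
noncomputable def chkRel (T : Tab) (R : RL) (p : ℕ) : Bool :=
  frc (dmask T p T.ng) fun d => RL.rec true (fun m u v _ ih =>
    Nat.rec (Bool.rec false ih (Nat.beq (T.run u p) (T.run v p))) (fun _ _ => ih) (Nat.land d m)) R

/-- The pair `(u, v)` occurs. -/
def RL.has (a b : List ℕ) : RL → Bool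
  | .nil => false
  | .cons _ u v r => (u == a && v == b) || (u == b && v == a) || RL.has a b r

/-- The generator `g` normalises the relator. -/
def nrm (u v : List ℕ) (est : List (ℕ × ℕ)) (g : ℕ) : Prop :=
  (u = g :: u.tail ∧ v = u.tail ++ [v.getLastD 0]) ∨ (v = g :: v.tail ∧ u = v.tail ++ [u.getLastD 0]) ∨
    ∀ a ∈ u ++ v, a = g ∨ (a, g) ∈ est ∨ (g, a) ∈ est

instance nrmDec (u v : List ℕ) (est : List (ℕ × ℕ)) (g : ℕ) : Decidable (nrm u v est g) := by
  unfold nrm; infer_instance

/-- Validity of the masks. -/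
def RL.stg (ng : ℕ) : RL → List (ℕ × ℕ) → Bool
  | .nil, _ => true
  | .cons m u v r, est =>
    decide ((∀ a ∈ u ++ v, a < ng) ∧ ∀ g < ng, m.testBit g = true → nrm u v est g) &&
    RL.stg ng r (if u = [u.headD 0, v.headD 0] ∧ v = [v.headD 0, u.headD 0] then (u.headD 0, v.headD 0) :: est else est)

theorem dmask_spec (T : Tab) (p : ℕ) : ∀ k g, (dmask T p k).testBit g = true → g < k ∧ T.act g p < p := by
  intro k
  induction k with
  | zero => intro g h; simp [dmask] at h
  | succ k ih =>
    intro g h
    have e : dmask T p (k + 1) =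
      Bool.rec (Nat.lor (dmask T p k) (Nat.shiftLeft 1 k)) (dmask T p k) (Nat.ble p (T.act k p)) := rfl
    rw [e] at h
    cases hb : Nat.ble p (T.act k p)
    · rw [hb] at h
      have h' : (dmask T p k ||| 1 <<< k).testBit g = true := h
      rw [Nat.testBit_or, Bool.or_eq_true, Nat.one_shiftLeft, Nat.testBit_two_pow] at h'
      rcases h' with h' | h'
      · exact ⟨by have := (ih g h').1; omega, (ih g h').2⟩
      · have := of_decide_eq_true h'
        subst this
        refine ⟨by omega, ?_⟩
        by_contra hc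
        rw [Nat.ble_eq_true_of_le (by omega)] at hb; cases hb
    · rw [hb] at h
      exact ⟨by have := (ih g h).1; omega, (ih g h).2⟩

theorem chkRel_spec {T : Tab} {R : RL} {p : ℕ} (h : chkRel T R p = true) :
    R.All fun m u v => T.run u p = T.run v p ∨ ∃ g < T.ng, m.testBit g = true ∧ T.act g p < p := by
  unfold chkRel at h
  rw [frc_eq] at h
  induction R with
  | nil => trivial
  | cons m u v r ih =>
    have h' : (Nat.rec (Bool.rec false (RL.rec true (fun m u v _ ih =>
      Nat.rec (Bool.rec false ih (Nat.beq (T.run u p) (T.run v p))) (fun _ _ => ih)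
        (Nat.land (dmask T p T.ng) m)) r) (Nat.beq (T.run u p) (T.run v p))) (fun _ _ => RL.rec true (fun m u v _ ih =>
      Nat.rec (Bool.rec false ih (Nat.beq (T.run u p) (T.run v p))) (fun _ _ => ih)
        (Nat.land (dmask T p T.ng) m)) r) (Nat.land (dmask T p T.ng) m) : Bool) = true := h
    cases hl : Nat.land (dmask T p T.ng) m with
    | zero =>
      rw [hl] at h'
      cases hb : Nat.beq (T.run u p) (T.run v p)
      · rw [hb] at h'; cases h'
      · rw [hb] at h'; exact ⟨Or.inl (beq_iff.1 hb), ih h'⟩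
    | succ k =>
      rw [hl] at h'
      refine ⟨Or.inr ?_, ih h'⟩
      obtain ⟨g, hg⟩ := Nat.exists_testBit_of_ne_zero (x := dmask T p T.ng &&& m) (by
        show Nat.land _ _ ≠ 0
        omega)
      rw [Nat.testBit_and, Bool.and_eq_true] at hg
      exact ⟨g, (dmask_spec T p _ g hg.1).1, hg.2, (dmask_spec T p _ g hg.1).2⟩

theorem realizeEqns_Fi_ExD : True := by
  have := @CA.TC.nrm.eq_1
  have := @CA.TC.nrm.eq_def
  have := @CA.TC.nrm.congr_simp
  have := @CA.TC.chkRel.eq_1
  have := @CA.TC.chkRel.eq_def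
  have := @CA.TC.chkRel.congr_simp
  have := @CA.TC.RL.has.eq_1
  have := @CA.TC.RL.has.eq_2
  have := @CA.TC.RL.has.eq_def
  have := @CA.TC.RL.has.congr_simp
  have := @CA.TC.dmask.eq_1
  have := @CA.TC.dmask.eq_def
  have := @CA.TC.dmask.congr_simp
  have := @CA.TC.RL.All.eq_1
  have := @CA.TC.RL.All.eq_2
  have := @CA.TC.RL.All.eq_def
  have := @CA.TC.RL.All.congr_simp
  have := @CA.TC.RL.stg.eq_1
  have := @CA.TC.RL.stg.eq_2
  have := @CA.TC.RL.stg.eq_def
  have := @CA.TC.RL.stg.congr_simp
  trivial

end CA.TC
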