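/-
Existence: the permutations of a table whose relations are verified generate a group realising the table.
-/
import Cfsg.Agent.Fi.ExD
import Cfsg.Agent.Fi.Cent
set_option autoImplicit false

namespace CA.TC
open CA.Fi Cfsg

section stage
variable {G : Type*} [Group G] {s : ℕ → G}

theorem nrm_spec (hs : ∀ g, s g * s g = 1) {u v : List ℕ} {est : List (ℕ × ℕ)} {g : ℕ}
    (hest : ∀ x ∈ est, Commute (s x.1) (s x.2)) (h : nrm u v est g) :
    s g * (wd s v * (wd s u)⁻¹) * s g = wd s v * (wd s u)⁻¹ ∨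
      s g * (wd s v * (wd s u)⁻¹) * s g = (wd s v * (wd s u)⁻¹)⁻¹ := by
  have hi : ∀ g, (s g)⁻¹ = s g := fun g => inv_eq_of_mul_eq_one_right (hs g)
  rcases h with ⟨h1, h2⟩ | ⟨h1, h2⟩ | h
  · right
    rw [h2, h1]
    simp only [List.tail_cons, wd_append, wd_cons, wd_nil, mul_one, mul_inv_rev, hi, inv_inv]
    calc _ = s g * (wd s u.tail * s (v.getLastD 0) * (wd s u.tail)⁻¹) * (s g * s g) := by group
      _ = _ := by rw [hs]; group
  · right
    rw [h2, h1]
    simp only [List.tail_cons, wd_append, wd_cons, wd_nil, mul_one, mul_inv_rev, hi, inv_inv]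
    calc _ = (s g * s g) * (wd s v.tail * s (u.getLastD 0) * (wd s v.tail)⁻¹) * s g := by group
      _ = _ := by rw [hs]; group
  · left
    have key : ∀ w : List ℕ, (∀ a ∈ w, a ∈ u ++ v) → Commute (s g) (wd s w) := by
      intro w hw
      induction w with
      | nil => exact Commute.one_right _
      | cons a w ih =>
        rw [wd_cons]
        refine Commute.mul_right ?_ (ih fun b hb => hw b (List.mem_cons_of_mem _ hb))
        rcases h a (hw a List.mem_cons_self) with h1 | h1 | h1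
        · rw [h1]; exact Commute.refl _
        · exact (hest _ h1).symm
        · exact hest _ h1
    have := (key v fun a ha => List.mem_append_right _ ha).mul_right (key u fun a ha => List.mem_append_left _ ha).inv_right
    rw [this.eq, mul_assoc, hs, mul_one]

theorem stg_spec (hs : ∀ g, s g * s g = 1) {ng : ℕ} {P : ℕ → List ℕ → List ℕ → Prop}
    (hP : ∀ m u v, P m u v → (∀ a ∈ u ++ v, a < ng) → (∀ g < ng, m.testBit g = true →
      s g * (wd s v * (wd s u)⁻¹) * s g = wd s v * (wd s u)⁻¹ ∨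
        s g * (wd s v * (wd s u)⁻¹) * s g = (wd s v * (wd s u)⁻¹)⁻¹) → wd s u = wd s v) :
    ∀ (R : RL) (est : List (ℕ × ℕ)), R.All P → (∀ x ∈ est, Commute (s x.1) (s x.2)) → R.stg ng est = true →
      R.All fun _ u v => wd s u = wd s v := by
  intro R
  induction R with
  | nil => intro _ _ _ _; trivial
  | cons m u v r ih =>
    intro est h1 h2 h3
    rw [RL.stg, Bool.and_eq_true, decide_eq_true_iff] at h3
    have h4 := hP m u v h1.1 h3.1.1 fun g hg hm => nrm_spec hs h2 (h3.1.2 g hg hm)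
    refine ⟨h4, ih _ h1.2 ?_ h3.2⟩
    split_ifs with h5
    · intro x hx
      rcases List.mem_cons.1 hx with rfl | hx
      · have h6 : wd s [u.headD 0, v.headD 0] = wd s [v.headD 0, u.headD 0] := by rw [← h5.1, ← h5.2]; exact h4
        simp only [wd_cons, wd_nil, mul_one] at h6
        exact h6
      · exact h2 x hx
    · exact h2

theorem has_spec {a b : List ℕ} : ∀ R : RL, (R.All fun _ u v => wd s u = wd s v) → R.has a b = true →
    wd s a = wd s b := by
  intro R
  induction R with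
  | nil => intro _ h; cases h
  | cons m u v r ih =>
    intro h1 h2
    rw [RL.has] at h2
    simp only [Bool.or_eq_true, Bool.and_eq_true, beq_iff_eq] at h2
    rcases h2 with (⟨rfl, rfl⟩ | ⟨rfl, rfl⟩) | h2
    · exact h1.1
    · exact h1.1.symm
    · exact ih h1.2 h2

theorem RL.all_forall {n : ℕ} {Q : ℕ → ℕ → List ℕ → List ℕ → Prop} : ∀ R : RL, (∀ p < n, R.All (Q p)) →
    R.All fun m u v => ∀ p < n, Q p m u v
  | .nil, _ => trivial
  | .cons _ _ _ r, h => ⟨fun p hp => (h p hp).1, RL.all_forall r fun p hp => (h p hp).2⟩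

end stage

variable {T lo hi : Tab}

/-- The permutations of a table. -/
noncomputable def Tab.Ok.perm (h : T.Ok) (g : ℕ) : Equiv.Perm (Fin T.n) :=
  if hg : g < T.ng then Function.Involutive.toPerm (fun p => ⟨T.act g p, h.act_lt g hg p p.2⟩)
    fun p => Fin.ext (h.invol g hg p p.2) else 1

theorem Tab.Ok.perm_sq (h : T.Ok) (g : ℕ) : h.perm g * h.perm g = 1 := by
  unfold Tab.Ok.perm
  split_ifs with hg
  · ext p; exact h.invol g hg p p.2
  · simp

theorem Tab.Ok.perm_apply (h : T.Ok) {g : ℕ} (hg : g < T.ng) (p : Fin T.n) : (h.perm g p : ℕ) = T.act g p := by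
  unfold Tab.Ok.perm; rw [dif_pos hg]; rfl

theorem Tab.Ok.wd_apply (h : T.Ok) {w : List ℕ} (hw : T.Val w) (p : Fin T.n) :
    (wd h.perm w p : ℕ) = T.actw w p := by
  induction w with
  | nil => rfl
  | cons g w ih => rw [wd_cons, Equiv.Perm.mul_apply, h.perm_apply hw.head, ih hw.tail, Tab.actw_cons]

theorem Tab.Ok.qrel (h : T.Ok) {R : RL} (hc : ∀ p < T.n, chkRel T R p = true) (hs : R.stg T.ng [] = true)
    {qs : List (ℕ × List ℕ × ℕ)}
    (hq : ∀ q ∈ qs, q.1 :: q.2.1 = q.2.1 ++ [q.2.2] ∨ R.has (q.1 :: q.2.1) (q.2.1 ++ [q.2.2]) = true) :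
    QRel h.perm qs := by
  have key := stg_spec h.perm_sq (ng := T.ng) (fun m u v hP hl hm => ?_) R []
    (R.all_forall fun p hp => chkRel_spec (hc p hp)) (by simp) hs
  · intro q hq'
    have : wd h.perm (q.1 :: q.2.1) = wd h.perm (q.2.1 ++ [q.2.2]) := by
      rcases hq q hq' with h1 | h1
      · rw [h1]
      · exact has_spec R key h1
    rw [wd_cons, wd_append, wd_cons, wd_nil, mul_one] at this
    rw [mul_assoc, this]; group
  have hu : T.Val u := fun a ha => hl a (List.mem_append_left _ ha)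
  have hv : T.Val v := fun a ha => hl a (List.mem_append_right _ ha)
  set r := wd h.perm v * (wd h.perm u)⁻¹ with hr
  suffices H : ∀ k, ∀ p : Fin T.n, (p : ℕ) = k → r p = p by
    have : r = 1 := Equiv.ext fun p => H _ p rfl
    exact (mul_inv_eq_one.1 this).symm
  intro k
  induction k using Nat.strong_induction_on with
  | _ k ih =>
  intro p hp
  rcases hP p p.2 with h1 | ⟨g, hg, h1, h2⟩
  · rw [Tab.run_eq_actw, Tab.run_eq_actw, ← h.wd_apply hu.reverse, ← h.wd_apply hv.reverse,
      wd_reverse (fun g _ => h.perm_sq g) hu, wd_reverse (fun g _ => h.perm_sq g) hv] at h1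
    rw [hr, Equiv.Perm.mul_apply, Fin.ext h1]; simp
  · have h3 := ih _ (by rw [h.perm_apply hg]; omega) (h.perm g p) rfl
    have h4 : (h.perm g * r * h.perm g) p = p := by
      rw [Equiv.Perm.mul_apply, Equiv.Perm.mul_apply, h3, ← Equiv.Perm.mul_apply, h.perm_sq]; rfl
    rcases hm g hg h1 with h5 | h5 <;> rw [h5] at h4
    · exact h4
    · exact (Equiv.Perm.inv_eq_iff_eq.1 h4).symm

theorem real_perm (hN : Nest lo hi) (ht : hi.Trans) (ht' : lo.Trans)
    (hq : QReal hi (hi.el hN.hi_ok.perm)) {g1 g2 : ℕ} (h1 : g1 < lo.ng) (h2 : g2 < lo.ng)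
    (h3 : lo.act g1 (lo.pt g2) ≠ lo.pt g2) (h4 : hi.act (lo.ng + 1) 0 ≠ 0) :
    Real hi (hi.el hN.hi_ok.perm '' Set.Iio hi.n) (hi.el hN.hi_ok.perm) := by
  set e := hi.el hN.hi_ok.perm
  have hn := hN.n_lt
  have hg : ∀ g < hi.ng, hi.gen e g = hN.hi_ok.perm g := fun g hg => hN.hi_ok.el_pt _ hg
  have cm : ∀ g < hi.ng, ∀ p < hi.n, hi.gen e g = e 0 → hi.act g p = hi.act lo.ng p := fun g hg' p hp he => by
    rw [← hN.gen_z e, hg g hg', hg _ (by rw [hN.ng]; omega)] at he
    have := hN.hi_ok.perm_apply hg' ⟨p, hp⟩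
    rw [he, hN.hi_ok.perm_apply (by rw [hN.ng]; omega)] at this
    exact this.symm
  have base : ∀ q < hi.n, e q = e 0 → q = 0 := by
    intro q hq' he
    by_contra h0
    by_cases hl : lo.n < q
    · obtain ⟨w, hw, rfl⟩ := hN.a_orbit q hq' hl
      have hw' : hi.Val w := fun g hg => by have := hw g hg; rw [hN.ng]; omega
      have e1 := hq.wd_conj hw' (show 0 < hi.n by omega)
      rw [hN.actw_zero hw] at e1
      have e3 := hq.wd_conj hw' hn
      rw [he, ← e1] at e3
      have e2 : e (lo.n + 1) = e 0 := cj_inj e3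
      have := cm (lo.ng + 1) (by rw [hN.ng]; omega) 0 (by omega) (by rw [hN.gen_b, e2])
      rw [hN.z_fix _ (by omega)] at this
      exact h4 this
    · obtain ⟨k, rfl⟩ := Nat.exists_eq_succ_of_ne_zero h0
      have hp2 := hN.lo_ok.pt_lt g2 h2
      obtain ⟨w, hw, e0⟩ := ht'.exists hN.lo_ok (show k < lo.n by omega) (hN.lo_ok.pt_lt g1 h1)
      have e1 := hq.wd_conj (hN.val hw) (show 0 < hi.n by omega)
      rw [hN.actw_zero fun g hg => (hw g hg).le] at e1
      have e2 := hq.wd_conj (hN.val hw) hq'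
      rw [he, e1, Nat.succ_eq_add_one, hN.actw_lo hw (by omega), e0, ← hN.pt_lo g1 h1] at e2
      have := cm g1 (by rw [hN.ng]; omega) (lo.pt g2 + 1) (by omega) e2.symm
      rw [hN.z_fix _ (by omega), hN.act_lo g1 h1 _ hp2] at this
      exact h3 (by omega)
  refine { hq with mem := fun p hp => ⟨p, hp, rfl⟩, inj := ?_, surj := ?_ }
  · intro p hp q hq' he
    obtain ⟨w, hw, rfl⟩ := ht p hp
    have e1 := hq.run_conj hw hq'
    rw [← he, hq.run_conj hw hp, hq.ok.run_actw hw (by omega)] at e1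
    have := base _ (hq.ok.run_lt hw hq') e1.symm
    rw [← this, hq.ok.actw_run hw hq']
  · rintro _ ⟨p, hp, rfl⟩; exact ⟨p, hp, rfl⟩

theorem realizeEqns_Fi_Exi : True := by
  have := @CA.TC.Tab.Ok.perm.eq_1
  have := @CA.TC.Tab.Ok.perm.eq_def
  have := @CA.TC.Tab.Ok.perm.congr_simp
  trivial

end CA.TC
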