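/-
Existence of a group realising the table `X22`.
-/
import Cfsg.Agent.Fi.Exi
import Cfsg.Agent.Fi.Rl22
import Cfsg.Agent.Fi.Fin23
set_option autoImplicit false

namespace CA.TC
open CA.Fi Cfsg

theorem exi22_d : XU.act 0 (XU.pt 1) ≠ XU.pt 1 ∧ X22.act 9 0 ≠ 0 := by decide +kernel

/-- The permutations of the table `X22` realise it. -/
theorem real_perm22 : Real X22 (X22.el ok22.perm '' Set.Iio X22.n) (X22.el ok22.perm) :=
  real_perm nest22 trans22 transU (qreal22 _ (fun g _ => ok22.perm_sq g) (ok22.qrel rl22_c rl22_s rl22_q))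
    (g1 := 0) (g2 := 1) (by decide) (by decide) exi22_d.1 exi22_d.2

/-- There is a centreless finite group generated by a class realising `X22`. -/
theorem exists22 : ∃ (G : Type) (_ : Group G) (_ : Finite G) (D : Set G) (e : ℕ → G),
    Real X22 D e ∧ Subgroup.closure D = ⊤ ∧ Subgroup.center G = ⊥ := by
  obtain ⟨e, h1, h2, h3, -⟩ := real_perm22.quot real_perm22.sep22 rfl
  exact ⟨_, inferInstance, inferInstance, _, e, h1, h2, h3⟩

end CA.TC
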