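/-
Existence of a group realising the table `X23`.
-/
import Cfsg.Agent.Fi.Exi
import Cfsg.Agent.Fi.Rl23
import Cfsg.Agent.Fi.Fin24
set_option autoImplicit false

namespace CA.TC
open CA.Fi Cfsg

theorem exi23_d : X22.act 0 (X22.pt 1) ≠ X22.pt 1 ∧ X23.act 11 0 ≠ 0 := by decide +kernel

/-- The permutations of the table `X23` realise it. -/
theorem real_perm23 : Real X23 (X23.el ok23.perm '' Set.Iio X23.n) (X23.el ok23.perm) :=
  real_perm nest23 trans23 trans22 (qreal23 _ (fun g _ => ok23.perm_sq g) (ok23.qrel rl23_c rl23_s rl23_q))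
    (g1 := 0) (g2 := 1) (by decide) (by decide) exi23_d.1 exi23_d.2

/-- There is a centreless finite group generated by a class realising `X23`. -/
theorem exists23 : ∃ (G : Type) (_ : Group G) (_ : Finite G) (D : Set G) (e : ℕ → G),
    Real X23 D e ∧ Subgroup.closure D = ⊤ ∧ Subgroup.center G = ⊥ := by
  obtain ⟨e, h1, h2, h3, -⟩ := real_perm23.quot real_perm23.sep23 rfl
  exact ⟨_, inferInstance, inferInstance, _, e, h1, h2, h3⟩

end CA.TC
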