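/-
Existence of a group realising the table `X24`.
-/
import Cfsg.Agent.Fi.Exi
import Cfsg.Agent.Fi.Rl24c
import Cfsg.Agent.Fi.St24d
import Cfsg.Agent.Fi.Prep
import Cfsg.Agent.Fi.K24
set_option autoImplicit false

namespace CA.TC
open CA.Fi Cfsg

theorem Real.sep24 {G : Type*} [Group G] {E : Set G} {e : ℕ → G} (h : Real X24 E e) : Sep E :=
  h.sep_nest nest24 trans24 ((h.lower nest24).exists_nc trans23 (by rw [X23_n]; omega)
    (ok23.pt_lt 11 (by rw [X23_ng]; omega)) st24_g.2.1)

theorem exi24_d : X23.act 0 (X23.pt 1) ≠ X23.pt 1 ∧ X24.act 13 0 ≠ 0 := by decide +kernel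

/-- The permutations of the table `X24` realise it. -/
theorem real_perm24 : Real X24 (X24.el ok24.perm '' Set.Iio X24.n) (X24.el ok24.perm) :=
  real_perm nest24 trans24 trans23 (qreal24 _ (fun g _ => ok24.perm_sq g) (ok24.qrel rl24_c rl24_s rl24_q))
    (g1 := 0) (g2 := 1) (by decide) (by decide) exi24_d.1 exi24_d.2

/-- There is a centreless finite group generated by a class realising `X24`. -/
theorem exists24 : ∃ (G : Type) (_ : Group G) (_ : Finite G) (D : Set G) (e : ℕ → G),
    Real X24 D e ∧ Subgroup.closure D = ⊤ ∧ Subgroup.center G = ⊥ := by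
  obtain ⟨e, h1, h2, h3, -⟩ := real_perm24.quot real_perm24.sep24 rfl
  exact ⟨_, inferInstance, inferInstance, _, e, h1, h2, h3⟩

end CA.TC
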