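/-
INTERFACE (owner helper8): a group realising `X22` is a primitive 3-transposition group of type M(22).
-/
import Cfsg.Agent.Fi.K22
import Cfsg.Agent.Fi.Refl
import Cfsg.Agent.Fi.Cent
import Cfsg.Agent.Fi.CardU
import Cfsg.Prelude.Def_FischerSpaces
set_option autoImplicit false

namespace CA.TC
open Cfsg.Agent
variable {G : Type*} [Group G] {D : Set G} {e : ℕ → G}

theorem type22_of_real (h : Real X22 D e) (hD : Subgroup.closure D = ⊤) (hZ : Subgroup.center G = ⊥) :
    Cfsg.IsOfTypeM22 G D := by
  obtain ⟨e', h1, h2, h3, -⟩ := (h.lower nest22).quot (h.lower nest22).sepU rfl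
  exact ⟨hZ, e 0, h.mem 0 (by decide), e 694, h.mem 694 (by decide),
    fun hc => absurd ((h.commute_zero_iff nest22 (by decide)).1 hc) (by decide),
    ⟨U6.F4, _, _, U6.card_F4, h1.isoU h2 h3⟩, _, by decide, h.subR6.projRefl realR6⟩

end CA.TC
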