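/-
Groups realising the table `XT` (3240 points): `PΩ⁺(8,3) : S₃`.
-/
import Cfsg.Agent.Fi.R24d
import Cfsg.Agent.Fi.Prep
set_option autoImplicit false

namespace CA.TC
open Cfsg Cfsg.Agent Cfsg.Agent.Orth CA.Fi

/-- The exchange of the two halves. -/
def tau8 : Fin 8 → Fin 8 := ![4, 5, 6, 7, 0, 1, 2, 3]

theorem tau8_inv : Function.Involutive tau8 := by unfold Function.Involutive; decide

theorem realR8 : Real XR8 {g | ∃ v, formQ tau8 v = (1 : ℕ) ∧ g = refl _ v}
    (fun p => refl (formQ tau8) (vec3 8 (vcT p))) :=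
  realRefl okR8 tau8 (by decide) (polar_formQ tau8_inv) (Or.inl rfl) r8d_v r8d_c

theorem pomega8 : Nonempty (commutator (RR (formQ tau8) (1 : ℕ) ⧸ Subgroup.center (RR (formQ tau8) (1 : ℕ))) ≃*
    POmega (ZMod 3) (quadFormPlus 4 (ZMod 3))) := by
  have hQ := nondeg_formQ tau8_inv
  have h5 : 5 ≤ Module.finrank (ZMod 3) (Fin 8 → ZMod 3) := by simp
  have h1 := map_commutator_of (c := (1 : ℕ)) hQ h5 (by decide) (RR _ _).range_subtype
  obtain ⟨a, b, hab⟩ := hQ.exists_HP_of_finite (by omega)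
  obtain ⟨f⟩ := commQuot (R := RR (formQ tau8) (1 : ℕ)) fun x _ hx => Subgroup.mem_center_iff.2 fun y => Subtype.ext (by
    have := eq_one_or_negOne_of_comm hQ (by omega) hab (g := x.1) fun k hk => by
      obtain ⟨k, hk', rfl⟩ := h1.ge hk
      exact congrArg Subtype.val (hx k hk')
    rw [Subgroup.coe_mul, Subgroup.coe_mul]
    rcases this with h | h <;> rw [h]
    · simp
    · exact negOne_comm _)
  refine ⟨(f.trans (Lin.quotCenterCongr ((Subgroup.equivMapOfInjective _ _ (RR _ _).subtype_injective).trans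
    (MulEquiv.subgroupCongr (h1.trans (hQ.commutator_eq_EE_of_finite h5).symm))))).trans (pomegaEquiv
      (LinearEquiv.funCongrLeft (ZMod 3) (ZMod 3) (finSumFinEquiv (m := 4) (n := 4)).symm) fun x => ?_).symm⟩
  have h3 : (3 : ZMod 3) = 0 := rfl
  rw [formQ_apply, Fin.sum_univ_eight, quadFormPlus, Fin.sum_univ_four]
  show 2 * (x (.inl 0) * x (.inr 0)) + 2 * (x (.inl 1) * x (.inr 1)) + 2 * (x (.inl 2) * x (.inr 2)) +
    2 * (x (.inl 3) * x (.inr 3)) + 2 * (x (.inr 0) * x (.inl 0)) + 2 * (x (.inr 1) * x (.inl 1)) +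
    2 * (x (.inr 2) * x (.inl 2)) + 2 * (x (.inr 3) * x (.inl 3)) = _
  linear_combination (x (.inl 0) * x (.inr 0) + x (.inl 1) * x (.inr 1) + x (.inl 2) * x (.inr 2) +
    x (.inl 3) * x (.inr 3)) * h3

/-- The images of the generators in the symmetric group. -/
def kT (g : ℕ) : Equiv.Perm (Fin 3) := if g < 8 then Equiv.swap 1 2 else Equiv.swap 0 2

variable {G : Type*} [Group G] {D : Set G} {e : ℕ → G}

theorem Real.subT (h : Real X24 D e) : Real XT ({y : G | y ∈ D ∧ y ≠ e 0 ∧ Commute (e 0) y} ∩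
    {y : G | y ∈ D ∧ y ≠ e 31672 ∧ Commute (e 31672) y}) (fun p => e (psT p + 1)) :=
  h.subL nest24 okT td_s td_s'

theorem Real.sep_of_chk {T : Tab} (h : Real T D e) (ht : T.Trans) {l : List ℕ} (hl : ∀ q < T.n, chkSep T l q = true) :
    Sep D := by
  intro x hx x' hx' hne
  obtain ⟨p, hp, -⟩ := h.surj x hx
  obtain ⟨f, hf, rfl⟩ := h.exists_base ht (by omega) hx
  obtain ⟨q, hq, rfl⟩ := hf.surj x' hx'
  have := hl q hq
  unfold chkSep at this
  rw [bor_iff, beq_iff] at this
  rcases this with h1 | h1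
  · exact absurd (congrArg f h1) hne
  · obtain ⟨t, _, ht⟩ := anyL_spec h1
    rw [band_iff, band_iff, blt_iff, beq_iff, bne_iff] at ht
    exact ⟨f t, hf.mem t ht.1, (hf.commute_iff ht.1 (by omega)).2 ht.2.1,
      fun hc => ht.2.2 ((hf.commute_iff ht.1 hq).1 hc)⟩

theorem Real.sepT (h : Real XT D e) : Sep D := h.sep_of_chk transT td_sep

theorem valT {w : List ℕ} (hw : XR8.Val w) : XT.Val w := fun g hg => (hw g hg).trans (by decide)

theorem Real.subR8 (h : Real XT D e) : Real XR8 (e '' Set.Iio 1080) e :=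
  h.sub (ψ := fun p => p) okR8 (fun _ hp => hp.trans (by decide)) (fun _ _ _ _ h => h)
    (fun _ hg _ _ => okT.op_pt (hg.trans (by decide)) _) fun _ => Iff.rfl

/-- The action on the three classes. -/
theorem Real.homT (h : Real XT D e) (hD : Subgroup.closure D = ⊤) :
    ∃ π : G →* Equiv.Perm (Fin 3), ∀ w, XT.Val w → π (wd (XT.gen e) w) = wd kT w := by
  have k1 : ∀ g < 9, ∀ i : Fin 3, (kT g i : ℕ) = 2 * (i + g / 8) % 3 := by decide
  have k2 : ∀ w, XT.Val w → ∀ p < XT.n, ∀ i : Fin 3, p / 1080 = i → XT.actw w p / 1080 = wd kT w i := by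
    intro w hw p hp i hi
    induction w with
    | nil => exact hi
    | cons g w ih =>
      rw [wd_cons, Equiv.Perm.mul_apply, k1 g hw.head, ← ih hw.tail, Tab.actw_cons]
      exact beq_iff.1 (allLt_spec (td_cl _ (okT.actw_lt hw.tail hp)) g hw.head)
  obtain ⟨π, hπ⟩ := h.hom hD.symm kT fun w hw hp => Equiv.ext fun i => Fin.ext (by
    have h1 : 1080 * (i : ℕ) < XT.n := by show _ < 3240; omega
    rw [← k2 w hw _ h1 i (by omega), hp _ h1]; simp)
  exact ⟨π.comp Subgroup.topEquiv.symm.toMonoidHom, fun w hw => hπ _ w hw rfl⟩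

/-- The centraliser of the first class is trivial. -/
theorem Real.centT (h : Real XT D e) (hD : Subgroup.closure D = ⊤) (hZ : Subgroup.center G = ⊥) {z : G}
    (hz : ∀ g < 8, Commute z (XT.gen e g)) : z = 1 := by
  obtain ⟨q, hq, h1⟩ := h.exists_pt (hD ▸ Subgroup.mem_top z) (p := 1080) (by decide)
  have h2 := td_pin q hq
  simp only [bor_iff, beq_iff] at h2
  rcases h2 with rfl | h2
  · rw [← Subgroup.mem_bot, ← hZ, Subgroup.mem_center_iff]
    refine fun y => (h.commute_of_gens (fun g hg => ?_) (hD ▸ Subgroup.mem_top y)).symm.eq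
    by_cases h8 : g < 8
    · exact hz g h8
    · obtain rfl : g = 8 := by have : g < 9 := hg; omega
      rw [Tab.gen, td_b.2.1]; exact mul_inv_eq_iff_eq_mul.1 h1
  · obtain ⟨w, hw, h3⟩ := anyL_spec h2
    have h4 := td_pin' w hw
    refine absurd ((h.commute_wd_iff (valT h4.1) hq).1 ?_) (bne_iff.1 h3)
    have h5 : Commute z (wd (XT.gen e) w) := h.subR8.commute_of_gens hz (h.subR8.wd_mem_closure h4.1)
    rw [← h1]
    exact (h5.symm.mul_right ((h.commute_wd_iff (valT h4.1) (by decide)).2 h4.2)).mul_right h5.symm.inv_right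

/-- The commutator subgroup of the group generated by the first class is `PΩ⁺(8,3)`. -/
theorem Real.isoT (h : Real XT D e) (hD : Subgroup.closure D = ⊤) (hZ : Subgroup.center G = ⊥) :
    Nonempty ((⁅Subgroup.closure (e '' Set.Iio 1080), Subgroup.closure (e '' Set.Iio 1080)⁆ : Subgroup G) ≃*
      POmega (ZMod 3) (quadFormPlus 4 (ZMod 3))) := by
  obtain ⟨f, -⟩ := h.subR8.isoZ rfl realR8 (H' := RR _ _) rfl
  obtain ⟨f'⟩ := pomega8
  have h1 : Subgroup.center (Subgroup.closure (e '' Set.Iio 1080)) = ⊥ := (Subgroup.eq_bot_iff_forall _).2 fun z hz =>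
    Subtype.ext (h.centT hD hZ fun g hg => (congrArg Subtype.val (Subgroup.mem_center_iff.1 hz
      ⟨_, Subgroup.subset_closure (h.subR8.mem _ (okR8.pt_lt g hg))⟩)).symm)
  exact ⟨((MulEquiv.subgroupCongr (Subgroup.map_subtype_commutator _).symm).trans
    (Subgroup.equivMapOfInjective _ _ (Subgroup.subtype_injective _)).symm).trans
      ((Lin.commutatorCongr ((Lin.quotCenterOfEqBot h1).symm.trans f)).trans f')⟩

theorem Real.tri (h : Real XT D e) (hD : Subgroup.closure D = ⊤) (hZ : Subgroup.center G = ⊥) :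
    ∃ _ : (⁅Subgroup.closure (e '' Set.Iio 1080), Subgroup.closure (e '' Set.Iio 1080)⁆ : Subgroup G).Normal,
      Nonempty (G ⧸ ⁅Subgroup.closure (e '' Set.Iio 1080), Subgroup.closure (e '' Set.Iio 1080)⁆ ≃*
        Equiv.Perm (Fin 3)) := by
  obtain ⟨π, hπ⟩ := h.homT hD
  have r := h.subR8
  set L := Subgroup.closure (e '' Set.Iio 1080)
  set N : Subgroup G := ⁅L, L⁆
  set s := XT.gen e with hs
  have sq : ∀ g < 9, s g * s g = 1 := h.sq
  have si : ∀ g < 9, (s g)⁻¹ = s g := fun g hg => h.toQReal.gen_inv hg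
  have sL : ∀ g < 8, s g ∈ L := fun g hg => Subgroup.subset_closure (r.mem _ (okR8.pt_lt g hg))
  have nL : ∀ x ∈ L, ∀ n ∈ N, x * n * x⁻¹ ∈ N := fun x hx n hn =>
    (Subgroup.mem_normalizer_iff.1 (Subgroup.normalizer_commutator_ge_left L L hx) n).1 hn
  have k0 : ∀ g < 8, s 0 * s g ∈ N := fun g hg => by
    obtain ⟨w, hw, h1⟩ := transR8 _ (okR8.pt_lt g hg)
    have h2 := r.toQReal.wd_conj hw (p := 0) (by decide)
    have h3 : s 0 = e 0 := congrArg e td_b.1
    have := Subgroup.commutator_mem_commutator (sL 0 (by decide)) (r.wd_mem_closure hw)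
    rwa [commutatorElement_def, si 0 (by decide), mul_assoc, mul_assoc, ← mul_assoc (wd _ w), h3, h2, h1, ← h3] at this
  have par : ∀ (φ : G →* G), (∀ g < 8, φ (s 0 * s g) ∈ N) → ∀ w, XR8.Val w →
      (w.length % 2 = 0 → φ (wd s w) ∈ N) ∧ (w.length % 2 = 1 → φ (s 0 * wd s w) ∈ N) := fun φ hφ w hw => by
    induction w with
    | nil => exact ⟨fun _ => by simp, fun h => by simp at h⟩
    | cons g w ih =>
      rw [List.length_cons, wd_cons]
      refine ⟨fun h1 => ?_, fun h1 => ?_⟩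
      · have := N.mul_mem (N.inv_mem (hφ g hw.head)) ((ih hw.tail).2 (by omega))
        rwa [← map_inv, ← map_mul, mul_inv_rev, mul_assoc, inv_mul_cancel_left, si g (hw.head.trans (by decide))] at this
      · have := N.mul_mem (hφ g hw.head) ((ih hw.tail).1 (by omega))
        rwa [← map_mul, mul_assoc] at this
  have ev := fun w hw => (par (MonoidHom.id G) k0 w hw).1
  have πL : ∀ w, XR8.Val w → π (wd s w) = Equiv.swap 1 2 ^ w.length := fun w hw => by
    rw [hπ w (valT hw)]
    induction w with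
    | nil => rfl
    | cons g w ih => rw [wd_cons, ih hw.tail, List.length_cons, pow_succ', kT, if_pos (show g < 8 from hw.head)]
  have πN : N ≤ π.ker := Subgroup.commutator_le.2 fun x hx y hy => by
    obtain ⟨u, hu, rfl⟩ := r.exists_wd hx
    obtain ⟨v, hv, rfl⟩ := r.exists_wd hy
    rw [MonoidHom.mem_ker, map_commutatorElement, commutatorElement_eq_one_iff_commute]
    exact (πL u hu).symm ▸ (πL v hv).symm ▸ Commute.pow_pow_self _ _ _
  have nt : ∀ n ∈ N, s 8 * n * (s 8)⁻¹ ∈ N := fun n hn => by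
    obtain ⟨w, hw, rfl⟩ := r.exists_wd (((Subgroup.commutator_le_sup L L).trans (sup_idem L).le) hn)
    refine (par (MulAut.conj (s 8)).toMonoidHom (fun g hg => ?_) w hw).1 ?_
    · obtain ⟨a1, a2, a3⟩ := td_w g hg
      have := (h.wd_eq_iff hD hZ (u := [8, 0, g, 8]) (fun a ha => by
        have : a < 9 := by simp at ha; omega
        exact this) (valT a1)).2 a3
      have h2 := ev _ a1 a2
      rw [MonoidHom.id_apply, ← this] at h2
      simpa [si 8 (by decide), mul_assoc] using h2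
    · have h1 := (πL w hw).symm.trans (πN hn)
      by_contra h2
      rw [← Nat.mod_add_div w.length 2, pow_add, pow_mul, show w.length % 2 = 1 by omega] at h1
      simp [pow_two] at h1
  have hN : N.Normal := ⟨fun n hn y => by
    obtain ⟨w, hw, rfl⟩ := h.exists_wd (hD ▸ Subgroup.mem_top y)
    induction w with
    | nil => simpa using hn
    | cons g w ih =>
      rw [wd_cons, mul_inv_rev, show ∀ a b : G, a * b * n * (b⁻¹ * a⁻¹) = a * (b * n * b⁻¹) * a⁻¹ from
        fun a b => by group]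
      by_cases h8 : g < 8
      · exact nL _ (sL g h8) _ (ih hw.tail)
      · obtain rfl : g = 8 := by have : g < 9 := hw.head; omega
        exact nt _ (ih hw.tail)⟩
  let φ := QuotientGroup.lift N π πN
  obtain ⟨a, ha⟩ : ∃ a : G ⧸ N, a = (s 0 : G) := ⟨_, rfl⟩
  obtain ⟨b, hb⟩ : ∃ b : G ⧸ N, b = (s 8 : G) := ⟨_, rfl⟩
  have φa : φ a = Equiv.swap 1 2 := by rw [ha]; show π (s 0) = _; simpa using πL [0] (by decide)
  have φb : φ b = Equiv.swap 0 2 := by rw [hb]; show π (s 8) = _; simpa [kT] using hπ [8] (by decide)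
  have aa : ∀ x, a * (a * x) = x := fun x => by
    rw [← mul_assoc, ha, ← QuotientGroup.mk_mul, sq 0 (by decide)]; simp
  have bb : ∀ x, b * (b * x) = x := fun x => by
    rw [← mul_assoc, hb, ← QuotientGroup.mk_mul, sq 8 (by decide)]; simp
  have br : b * (a * b) = a * (b * a) := by
    have := (h.wd_eq_iff hD hZ (u := [0, 8, 0]) (v := [8, 0, 8]) (by decide) (by decide)).2 td_b.2.2
    simp only [wd_cons, wd_nil, mul_one] at this
    rw [ha, hb, ← QuotientGroup.mk_mul, ← QuotientGroup.mk_mul, ← QuotientGroup.mk_mul, ← QuotientGroup.mk_mul, this]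
  have six : ∀ y : G ⧸ N, y = 1 ∨ y = a ∨ y = b ∨ y = a * b ∨ y = b * a ∨ y = a * (b * a) := fun y => by
    obtain ⟨y, rfl⟩ := QuotientGroup.mk_surjective y
    obtain ⟨w, hw, rfl⟩ := h.exists_wd (hD ▸ Subgroup.mem_top y)
    induction w with
    | nil => exact Or.inl rfl
    | cons g w ih =>
      have a1 := aa 1
      have b1 := bb 1
      have b2 := bb (a * b)
      rw [mul_one] at a1 b1
      rw [br] at b2
      rw [wd_cons, QuotientGroup.mk_mul]
      by_cases h8 : g < 8
      · have : ((s g : G) : G ⧸ N) = a := by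
          rw [ha, eq_comm, QuotientGroup.eq, si 0 (by decide)]; exact k0 g h8
        rw [this]
        rcases ih hw.tail with h1 | h1 | h1 | h1 | h1 | h1 <;> rw [h1] <;> simp [aa, a1]
      · obtain rfl : g = 8 := by have : g < 9 := hw.head; omega
        rw [← hb]
        rcases ih hw.tail with h1 | h1 | h1 | h1 | h1 | h1 <;> rw [h1] <;> simp [bb, b1, b2, br]
  refine ⟨hN, ⟨MulEquiv.ofBijective φ ⟨(injective_iff_map_eq_one φ).2 fun y hy => ?_, fun σ => ?_⟩⟩⟩
  · rcases six y with rfl | rfl | rfl | rfl | rfl | rfl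
    · rfl
    all_goals simp only [map_mul, φa, φb] at hy; exact absurd hy (by decide)
  · have : ∀ σ : Equiv.Perm (Fin 3), σ = 1 ∨ σ = .swap 1 2 ∨ σ = .swap 0 2 ∨ σ = .swap 1 2 * .swap 0 2 ∨
      σ = .swap 0 2 * .swap 1 2 ∨ σ = .swap 1 2 * (.swap 0 2 * .swap 1 2) := by decide
    rw [← φa, ← φb, ← map_one φ] at this
    simp only [← map_mul] at this
    rcases this σ with h1 | h1 | h1 | h1 | h1 | h1 <;> exact ⟨_, h1.symm⟩

theorem realizeEqns_Fi_Tri : True := by
  have := @CA.TC.kT.eq_1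
  have := @CA.TC.kT.eq_def
  have := @CA.TC.kT.congr_simp
  have := @CA.TC.tau8.eq_1
  have := @CA.TC.tau8.eq_def
  have := @CA.TC.tau8.congr_simp
  trivial

end CA.TC
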