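/-
Majorana involutions: eigenvector decomposition, fusion rules and the dihedral algebra.
-/
import Cfsg.Agent.EqAll
import Cfsg.Prelude.Def_AxialAlgebras

set_option autoImplicit false

namespace CA.Fi.Maj

open Cfsg.Axial

variable {V : Type*} [AddCommGroup V] [Module ℝ V] {mul : V →ₗ[ℝ] V →ₗ[ℝ] V}
  {B : LinearMap.BilinForm ℝ V}

/-- The facts about an axis `a` with Miyamoto involution `τ` in equational form. -/
structure Ax (mul : V →ₗ[ℝ] V →ₗ[ℝ] V) (B : LinearMap.BilinForm ℝ V) (τ : V ≃ₗ[ℝ] V) (a : V) : Prop where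
  idem : mul a a = a
  norm : B a a = 1
  fix : τ a = a
  odd : ∀ v, mul a (v - τ v) = (1 / 32 : ℝ) • (v - τ v)
  quarter : ∀ v, mul a ((4 : ℝ) • (mul a v - B a v • a - (1 / 64 : ℝ) • (v - τ v))) =
    (1 / 4 : ℝ) • ((4 : ℝ) • (mul a v - B a v • a - (1 / 64 : ℝ) • (v - τ v)))
  zero : ∀ v, mul a ((1 / 2 : ℝ) • (v + τ v) - B a v • a -
    (4 : ℝ) • (mul a v - B a v • a - (1 / 64 : ℝ) • (v - τ v))) = 0
  f00 : ∀ x y, mul a x = 0 → mul a y = 0 → mul a (mul x y) = 0
  f04 : ∀ x y, mul a x = 0 → mul a y = (1 / 4 : ℝ) • y → mul a (mul x y) = (1 / 4 : ℝ) • mul x y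
  f44 : ∀ x y, mul a x = (1 / 4 : ℝ) • x → mul a y = (1 / 4 : ℝ) • y →
    mul a (mul x y) = ((1 / 4 : ℝ) * B x y) • a

theorem eigenSum_ind {a : V} {S : Set ℝ} {p : V → Prop} {v : V} (hv : v ∈ eigenSum mul a S)
    (h0 : p 0) (hadd : ∀ x y, p x → p y → p (x + y)) (h : ∀ c ∈ S, ∀ x, mul a x = c • x → p x) : p v := by
  rw [eigenSum, iSup_subtype'] at hv
  refine Submodule.iSup_induction (motive := p) _ hv (fun c x hx => h c c.2 x ?_) h0 hadd
  exact Module.End.mem_eigenspace_iff.1 hx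

theorem eigenSum_ind' {a : V} {S : Set ℝ} {p : V → Prop}
    (h0 : p 0) (hadd : ∀ x y, p x → p y → p (x + y)) (h : ∀ c ∈ S, ∀ x, mul a x = c • x → p x) :
    ∀ v ∈ eigenSum mul a S, p v := fun _ hv => eigenSum_ind hv h0 hadd h

theorem mem_eigenSum {a : V} {S : Set ℝ} {c : ℝ} (hc : c ∈ S) {x : V} (hx : mul a x = c • x) :
    x ∈ eigenSum mul a S :=
  (le_iSup₂_of_le (f := fun c (_ : c ∈ S) => eigen mul a c) c hc le_rfl) (Module.End.mem_eigenspace_iff.2 hx)

theorem ax_of (hV : IsMajoranaAmbient mul B) {τ : V ≃ₗ[ℝ] V} {a : V} (h : IsMajoranaPair mul B τ a)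
    (hn : B a a = 1) : Ax mul B τ a := by
  obtain ⟨hc, hs, -, has, -⟩ := hV
  obtain ⟨-, -, ⟨⟨-, hi, htop, hfus⟩, hprim⟩, hfix, hneg⟩ := h
  have one : ∀ x, mul a x = x → x = B a x • a := by
    intro x hx
    have : x ∈ eigen mul a 1 := Module.End.mem_eigenspace_iff.2 (by simpa using hx)
    rw [hprim, Submodule.mem_span_singleton] at this
    obtain ⟨c, rfl⟩ := this
    simp [hn]
  have orth : ∀ (c : ℝ) x, c ≠ 1 → mul a x = c • x → B a x = 0 := by
    intro c x hc1 hx
    have := has a a x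
    rw [hi, hx, map_smul, smul_eq_mul] at this
    exact (mul_left_eq_self₀.1 this).resolve_left hc1
  have fx : ∀ c ∈ ({1, 0, 1 / 4} : Set ℝ), ∀ x, mul a x = c • x → τ x = x := fun c hc x hx =>
    hfix x (mem_eigenSum hc hx)
  have dec : ∀ v, mul a (v - τ v) = (1 / 32 : ℝ) • (v - τ v) ∧
      mul a ((4 : ℝ) • (mul a v - B a v • a - (1 / 64 : ℝ) • (v - τ v))) =
        (1 / 4 : ℝ) • ((4 : ℝ) • (mul a v - B a v • a - (1 / 64 : ℝ) • (v - τ v))) ∧
      mul a ((1 / 2 : ℝ) • (v + τ v) - B a v • a -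
        (4 : ℝ) • (mul a v - B a v • a - (1 / 64 : ℝ) • (v - τ v))) = 0 := by
    intro v
    have hv : v ∈ eigenSum mul a majoranaSpectrum := htop ▸ Submodule.mem_top
    revert v
    refine eigenSum_ind' (by simp) ?_ ?_
    · rintro x y ⟨h1, h2, h3⟩ ⟨k1, k2, k3⟩
      simp only [map_add, map_sub, map_smul] at *
      exact ⟨by linear_combination (norm := module) h1 + k1, by linear_combination (norm := module) h2 + k2,
        by linear_combination (norm := module) h3 + k3⟩
    · rintro c (rfl | rfl | rfl | rfl) x hx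
      · have h1 := fx _ (by simp) x hx
        rw [one_smul] at hx
        have h2 := one x hx
        simp only [map_add, map_sub, map_smul, h1, hx, hi, ← h2]
        refine ⟨by module, by module, by module⟩
      · have h1 := fx _ (by simp) x hx
        have h2 := orth _ x (by norm_num) hx
        simp only [map_add, map_sub, map_smul, h1, hx, hi, h2]
        refine ⟨by module, by module, by module⟩
      · have h1 := fx _ (by simp) x hx
        have h2 := orth _ x (by norm_num) hx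
        simp only [map_add, map_sub, map_smul, h1, hx, hi, h2]
        refine ⟨by module, by module, by module⟩
      · have h1 : τ x = -x := hneg x (Module.End.mem_eigenspace_iff.2 hx)
        have h2 := orth _ x (by norm_num) hx
        simp only [map_add, map_sub, map_smul, map_neg, h1, hx, hi, h2]
        refine ⟨by module, by module, by module⟩
  have fus : ∀ c ∈ majoranaSpectrum, ∀ d ∈ majoranaSpectrum, ∀ x y, mul a x = c • x → mul a y = d • y →
      mul x y ∈ eigenSum mul a (monsterLaw (1 / 4) (1 / 32) c d) := fun c hc d hd x y hx hy =>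
    hfus c hc d hd x (Module.End.mem_eigenspace_iff.2 hx) y (Module.End.mem_eigenspace_iff.2 hy)
  refine ⟨hi, hn, fx 1 (by simp) a (by simpa), fun v => (dec v).1, fun v => (dec v).2.1,
    fun v => (dec v).2.2, fun x y hx hy => ?_, fun x y hx hy => ?_, fun x y hx hy => ?_⟩
  · have := fus 0 (by simp [majoranaSpectrum]) 0 (by simp [majoranaSpectrum]) x y (by simpa) (by simpa)
    rw [monsterLaw, if_neg (by norm_num), if_neg (by norm_num), if_neg (by norm_num), if_neg (by norm_num),
      if_pos rfl] at this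
    refine eigenSum_ind (p := fun w => mul a w = 0) this (by simp) (fun u w h1 h2 => by simp [h1, h2]) ?_
    rintro c rfl w hw
    simpa using hw
  · have := fus 0 (by simp [majoranaSpectrum]) (1 / 4) (by simp [majoranaSpectrum]) x y (by simpa) hy
    rw [monsterLaw, if_neg (by norm_num), if_neg (by norm_num), if_neg (by norm_num), if_pos (Or.inr rfl)] at this
    refine eigenSum_ind (p := fun w => mul a w = (1 / 4 : ℝ) • w) this (by simp)
      (fun u w h1 h2 => by simp only [map_add, h1, h2, smul_add]) ?_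
    rintro c rfl w hw
    exact hw
  · have := fus (1 / 4) (by simp [majoranaSpectrum]) (1 / 4) (by simp [majoranaSpectrum]) x y hx hy
    rw [monsterLaw, if_neg (by norm_num), if_neg (by norm_num), if_pos ⟨rfl, rfl⟩] at this
    have key : mul a (mul x y) = B a (mul x y) • a := by
      refine eigenSum_ind (p := fun w => mul a w = B a w • a) this (by simp)
        (fun u w h1 h2 => by simp only [map_add, h1, h2, add_smul]) ?_
      rintro c (rfl | rfl) w hw
      · rw [one_smul] at hw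
        rw [hw]; exact one w hw
      · rw [orth _ w (by norm_num) hw, hw, zero_smul, zero_smul]
    rw [key, has, hx, map_smul, LinearMap.smul_apply, smul_eq_mul]

theorem miyamoto_unique {τ τ' : V ≃ₗ[ℝ] V} {a : V} (h : IsMajoranaPair mul B τ a)
    (h' : IsMajoranaPair mul B τ' a) : τ = τ' := by
  ext v
  refine eigenSum_ind (p := fun v => τ v = τ' v)
    (h.2.2.1.1.2.2.1 ▸ Submodule.mem_top : v ∈ eigenSum mul a majoranaSpectrum) (by simp)
    (fun x y h1 h2 => by simp [h1, h2]) ?_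
  rintro c (rfl | rfl | rfl | rfl) x hx
  · exact (h.2.2.2.1 x (mem_eigenSum (by simp) hx)).trans (h'.2.2.2.1 x (mem_eigenSum (by simp) hx)).symm
  · exact (h.2.2.2.1 x (mem_eigenSum (by simp) hx)).trans (h'.2.2.2.1 x (mem_eigenSum (by simp) hx)).symm
  · exact (h.2.2.2.1 x (mem_eigenSum (by simp) hx)).trans (h'.2.2.2.1 x (mem_eigenSum (by simp) hx)).symm
  · exact (h.2.2.2.2 x (Module.End.mem_eigenspace_iff.2 hx)).trans
      (h'.2.2.2.2 x (Module.End.mem_eigenspace_iff.2 hx)).symm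

theorem miyamoto_sq {τ : V ≃ₗ[ℝ] V} {a : V} (h : IsMajoranaPair mul B τ a) : τ * τ = 1 := by
  ext v
  refine eigenSum_ind (p := fun v => τ (τ v) = v)
    (h.2.2.1.1.2.2.1 ▸ Submodule.mem_top : v ∈ eigenSum mul a majoranaSpectrum) (by simp)
    (fun x y h1 h2 => by simp [h1, h2]) ?_
  have fx : ∀ c ∈ ({1, 0, 1 / 4} : Set ℝ), ∀ x, mul a x = c • x → τ x = x := fun c hc x hx =>
    h.2.2.2.1 x (mem_eigenSum hc hx)
  rintro c (rfl | rfl | rfl | rfl) x hx
  · rw [fx _ (by simp) x hx, fx _ (by simp) x hx]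
  · rw [fx _ (by simp) x hx, fx _ (by simp) x hx]
  · rw [fx _ (by simp) x hx, fx _ (by simp) x hx]
  · have h1 : τ x = -x := h.2.2.2.2 x (Module.End.mem_eigenspace_iff.2 hx)
    rw [h1, map_neg, h1, neg_neg]

/-- Transport of a Majorana pair by an automorphism. -/
theorem pair_conj {τ g : V ≃ₗ[ℝ] V} {a : V} (h : IsMajoranaPair mul B τ a)
    (hg : ∀ u v, g (mul u v) = mul (g u) (g v)) (hB : ∀ u v, B (g u) (g v) = B u v) :
    IsMajoranaPair mul B (g * τ * g⁻¹) (g a) := by
  obtain ⟨h1, h2, ⟨⟨h3, hi, htop, hfus⟩, hprim⟩, hfix, hneg⟩ := h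
  have e1 : ∀ c x, g x ∈ eigen mul (g a) c ↔ x ∈ eigen mul a c := fun c x => by
    simp only [eigen, Module.End.mem_eigenspace_iff, ← hg, ← map_smul, g.injective.eq_iff]
  have e2 : ∀ S x, x ∈ eigenSum mul a S → g x ∈ eigenSum mul (g a) S := fun S x hx =>
    eigenSum_ind (p := fun x => g x ∈ eigenSum mul (g a) S) hx (by simp)
      (fun x y h1 h2 => by rw [map_add]; exact add_mem h1 h2)
      (fun c hc x hx => mem_eigenSum hc (by rw [← hg, hx, map_smul]))
  have ap : ∀ x, (g * τ * g⁻¹) (g x) = g (τ x) := fun x => by simp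
  refine ⟨fun u v => ?_, fun u v => ?_, ⟨⟨fun e => h3 (by simpa using e), by rw [← hg, hi], ?_, ?_⟩, ?_⟩, ?_, ?_⟩
  · obtain ⟨u, rfl⟩ := g.surjective u
    obtain ⟨v, rfl⟩ := g.surjective v
    rw [← hg, ap, ap, ap, h1, hg]
  · obtain ⟨u, rfl⟩ := g.surjective u
    obtain ⟨v, rfl⟩ := g.surjective v
    rw [ap, ap, hB, hB, h2]
  · rw [eq_top_iff]
    intro v _
    obtain ⟨v, rfl⟩ := g.surjective v
    exact e2 _ _ (htop ▸ Submodule.mem_top)
  · intro c hc d hd u hu v hv
    obtain ⟨u, rfl⟩ := g.surjective u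
    obtain ⟨v, rfl⟩ := g.surjective v
    rw [← hg]
    exact e2 _ _ (hfus c hc d hd u ((e1 _ _).1 hu) v ((e1 _ _).1 hv))
  · ext v
    obtain ⟨v, rfl⟩ := g.surjective v
    simp only [e1, hprim, Submodule.mem_span_singleton, ← map_smul, g.injective.eq_iff]
  · intro v hv
    refine eigenSum_ind (p := fun v => (g * τ * g⁻¹) v = v) hv (by simp) (fun x y h1 h2 => by
      rw [map_add, h1, h2]) (fun c hc x hx => ?_)
    obtain ⟨x, rfl⟩ := g.surjective x
    rw [ap]
    exact congrArg g (hfix x (mem_eigenSum hc (g.injective (by rw [hg, hx, map_smul]))))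
  · intro v hv
    obtain ⟨v, rfl⟩ := g.surjective v
    exact (ap v).trans ((congrArg g (hneg v ((e1 _ _).1 hv))).trans (map_neg g v))

end CA.Fi.Maj
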