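/-
Tables realised by the reflections of a fixed norm of an orthogonal space over the field with three elements.
Vectors are coded by their base-3 digits.
-/
import Cfsg.Agent.Fi.Sub
import Cfsg.Agent.Orth.Refl3
set_option autoImplicit false

namespace CA.TC
open Cfsg Cfsg.Agent Cfsg.Agent.Orth QuadraticMap

/-- The `i`-th digit in base 3. -/
noncomputable def dg3 (u i : ℕ) : ℕ := Nat.mod (Nat.div u (Nat.pow 3 i)) 3

/-- The form `Σ u i * v (σ i)`. -/
noncomputable def dot3 (n : ℕ) (σ : ℕ → ℕ) (u v : ℕ) : ℕ :=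
  Nat.rec 0 (fun i ih => Nat.add ih (Nat.mul (dg3 u i) (dg3 v (σ i)))) n

/-- The code of the negative vector. -/
noncomputable def neg3 (n u : ℕ) : ℕ :=
  Nat.rec 0 (fun i ih => Nat.add ih (Nat.mul (Nat.mod (Nat.mul 2 (dg3 u i)) 3) (Nat.pow 3 i))) n

/-- `x + m a = ± w`. -/
noncomputable def chkRf (n m a x w : ℕ) : Bool :=
  bor (allLt n fun i => Nat.beq (Nat.mod (Nat.add (Nat.add (dg3 x i) (Nat.mul m (dg3 a i))) (Nat.mul 2 (dg3 w i))) 3) 0)
    (allLt n fun i => Nat.beq (Nat.mod (Nat.add (Nat.add (dg3 x i) (Nat.mul m (dg3 a i))) (dg3 w i)) 3) 0)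

/-- Check at a point. -/
noncomputable def chkV (T : Tab) (n : ℕ) (σ : ℕ → ℕ) (c : ℕ) (vc ix : ℕ → ℕ) (p : ℕ) : Bool :=
  frc (vc p) fun x => frc (neg3 n x) fun y => band (blt x (Nat.pow 3 n)) (band (blt y (Nat.pow 3 n))
    (band (allLt n fun i => Nat.beq (Nat.mod (Nat.add (dg3 x i) (dg3 y i)) 3) 0)
      (band (Nat.beq (ix x) p) (band (Nat.beq (ix y) p) (band (Nat.beq (Nat.mod (Nat.mul 2 (dot3 n σ x x)) 3) c)
        (allLt T.ng fun g => frc (vc (T.pt g)) fun a => frc (vc (T.act g p)) fun w =>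
          frc (Nat.mul (Nat.mul 2 c) (dot3 n σ x a)) fun m => chkRf n m a x w))))))

/-- Check at a vector. -/
noncomputable def chkC (T : Tab) (n : ℕ) (σ : ℕ → ℕ) (c : ℕ) (vc ix : ℕ → ℕ) (u : ℕ) : Bool :=
  bor (bne (Nat.mod (Nat.mul 2 (dot3 n σ u u)) 3) c) (frc (ix u) fun p => band (blt p T.n)
    (frc (vc p) fun x => bor (Nat.beq x u) (Nat.beq (neg3 n x) u)))

/-- The vector of a code. -/
noncomputable def vec3 (n u : ℕ) : Fin n → ZMod 3 := fun i => (dg3 u i : ZMod 3)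

theorem vec3_eq (n : ℕ) (u : Fin (3 ^ n)) : vec3 n u = finFunctionFinEquiv.symm u := by
  funext i
  refine ZMod.val_injective 3 ?_
  show ((dg3 u i : ℕ) : ZMod 3).val = u / 3 ^ (i : ℕ) % 3
  rw [ZMod.val_natCast]
  exact Nat.mod_mod _ _

theorem vec3_inj {n u v : ℕ} (hu : u < 3 ^ n) (hv : v < 3 ^ n) (h : vec3 n u = vec3 n v) : u = v := by
  rw [vec3_eq n ⟨u, hu⟩, vec3_eq n ⟨v, hv⟩] at h
  exact congrArg Fin.val (finFunctionFinEquiv.symm.injective h)

theorem vec3_surj {n : ℕ} (x : Fin n → ZMod 3) : ∃ u < 3 ^ n, vec3 n u = x :=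
  ⟨_, (finFunctionFinEquiv (m := 3) x).2, (vec3_eq n _).trans (Equiv.symm_apply_apply _ _)⟩

theorem dot3_cast {n : ℕ} (σ : ℕ → ℕ) (τ : Fin n → Fin n) (hσ : ∀ i, (τ i : ℕ) = σ i) (u v : ℕ) :
    (dot3 n σ u v : ZMod 3) = ∑ i, vec3 n u i * vec3 n v (τ i) := by
  have : ∀ k, dot3 k σ u v = ∑ i ∈ Finset.range k, dg3 u i * dg3 v (σ i) := fun k => by
    induction k with
    | zero => rfl
    | succ k ih => rw [Finset.sum_range_succ, ← ih]; rfl
  rw [this, Finset.sum_range]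
  simp [vec3, hσ]

theorem cast_of_mod {a : ℕ} (h : Nat.beq (Nat.mod a 3) 0 = true) : (a : ZMod 3) = 0 :=
  (ZMod.natCast_eq_zero_iff a 3).2 (Nat.dvd_of_mod_eq_zero (beq_iff.1 h))

theorem chkRf_spec {n m a x w : ℕ} (h : chkRf n m a x w = true) :
    vec3 n x + (m : ZMod 3) • vec3 n a = vec3 n w ∨ vec3 n x + (m : ZMod 3) • vec3 n a = (-1 : ZMod 3) • vec3 n w := by
  have h3 : (3 : ZMod 3) = 0 := rfl
  unfold chkRf at h
  rw [bor_iff] at h
  refine h.imp (fun h => funext fun i => ?_) fun h => funext fun i => ?_ <;>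
    have := cast_of_mod (allLt_spec h i i.2) <;> simp only [Nat.add_eq, Nat.mul_eq] at this <;> push_cast at this <;>
    simp only [vec3, Pi.add_apply, Pi.smul_apply, smul_eq_mul]
  · linear_combination this - (dg3 w i : ZMod 3) * h3
  · linear_combination this

variable {n : ℕ} {Q : QuadraticForm (ZMod 3) (Fin n → ZMod 3)}

theorem eq_of_refl_eq {V : Type*} [AddCommGroup V] [Module (ZMod 3) V] {Q : QuadraticForm (ZMod 3) V} {u w : V}
    (hu : Q u ≠ 0) (h : refl Q u = refl Q w) : u = w ∨ u = (-1 : ZMod 3) • w := by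
  have h1 := refl_apply_self hu
  rw [h, refl_apply] at h1
  have h3 : (3 : ZMod 3) = 0 := rfl
  have h2 : u = (-(polar Q u w / Q w)) • w := by linear_combination (norm := module) -h1 + h3 • u
  generalize -(polar Q u w / Q w) = t at h2
  have : t = 0 ∨ t = 1 ∨ t = -1 := by clear h2; revert t; decide
  rcases this with rfl | rfl | rfl
  · exact absurd (by rw [h2]; simp) hu
  · exact Or.inl (by rw [h2, one_smul])
  · exact Or.inr h2

/-- The reflections of norm `c` realise the table. -/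
theorem realRefl {T : Tab} (hT : T.Ok) {σ : ℕ → ℕ} (τ : Fin n → Fin n) (hσ : ∀ i, (τ i : ℕ) = σ i)
    (hQ : ∀ x y, polar Q x y = ∑ i, x i * y (τ i)) {c : ℕ} (hc : c = 1 ∨ c = 2) {vc ix : ℕ → ℕ}
    (h1 : ∀ p < T.n, chkV T n σ c vc ix p = true) (h2 : ∀ u < 3 ^ n, chkC T n σ c vc ix u = true) :
    Real T {g | ∃ v, Q v = c ∧ g = refl Q v} (fun p => refl Q (vec3 n (vc p))) := by
  have h3 : (3 : ZMod 3) = 0 := rfl
  have hp : ∀ u v, polar Q (vec3 n u) (vec3 n v) = dot3 n σ u v := fun u v => by rw [hQ, dot3_cast σ τ hσ]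
  have hq : ∀ u, Q (vec3 n u) = (Nat.mod (Nat.mul 2 (dot3 n σ u u)) 3 : ℕ) := fun u => by
    have := polar_self' (Q := Q) (vec3 n u)
    show _ = ((2 * dot3 n σ u u % 3 : ℕ) : ZMod 3)
    rw [ZMod.natCast_mod, Nat.cast_mul, ← hp, this]
    push_cast
    linear_combination (-Q (vec3 n u)) * h3
  have hc0 : (c : ZMod 3) ≠ 0 := by rcases hc with rfl | rfl <;> decide
  have hcc : (c : ZMod 3)⁻¹ = c := inv_eq_of_mul_eq_one_right (by rcases hc with rfl | rfl <;> decide)
  have k : ∀ p < T.n, vc p < 3 ^ n ∧ neg3 n (vc p) < 3 ^ n ∧ vec3 n (neg3 n (vc p)) = (-1 : ZMod 3) • vec3 n (vc p) ∧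
      ix (vc p) = p ∧ ix (neg3 n (vc p)) = p ∧ Q (vec3 n (vc p)) = c ∧ ∀ g < T.ng,
        chkRf n (2 * c * dot3 n σ (vc p) (vc (T.pt g))) (vc (T.pt g)) (vc p) (vc (T.act g p)) = true := fun p hp' => by
    have := h1 p hp'
    unfold chkV at this
    simp only [frc_eq, band_iff, blt_iff, beq_iff] at this
    obtain ⟨a1, a2, a3, a4, a5, a6, a7⟩ := this
    refine ⟨a1, a2, funext fun i => ?_, a4, a5, by rw [hq, a6], allLt_spec a7⟩
    have := cast_of_mod (allLt_spec a3 i i.2)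
    simp only [Nat.add_eq] at this
    push_cast at this
    simp only [vec3, Pi.smul_apply, smul_eq_mul]
    linear_combination this
  refine { ok := hT, sq := fun g _ => refl_mul_self _, conj := fun g hg p hp' => ?_,
           mem := fun p hp' => ⟨_, (k p hp').2.2.2.2.2.1, rfl⟩, inj := fun p hp' q hq' he => ?_, surj := ?_ }
  · show refl Q _ * _ * (refl Q _)⁻¹ = _
    have := chkRf_spec ((k p hp').2.2.2.2.2.2 g hg)
    rw [refl_conj, refl_apply, (k _ (hT.pt_lt g hg)).2.2.2.2.2.1, hp, div_eq_mul_inv, hcc, sub_eq_add_neg, ← neg_smul,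
      show -((dot3 n σ (vc p) (vc (T.pt g)) : ZMod 3) * c) = (2 * c * dot3 n σ (vc p) (vc (T.pt g)) : ℕ) by
        push_cast; linear_combination (-(c : ZMod 3) * dot3 n σ (vc p) (vc (T.pt g))) * h3]
    rcases this with h4 | h4 <;> rw [h4]
    exact refl_smul _ (by decide)
  · obtain ⟨a1, -, -, a4, -, a6, -⟩ := k p hp'
    obtain ⟨b1, b2, b3, b4, b5, -⟩ := k q hq'
    rcases eq_of_refl_eq (a6 ▸ hc0) he with h4 | h4
    · rw [← a4, vec3_inj a1 b1 h4, b4]
    · rw [← a4, vec3_inj a1 b2 (h4.trans b3.symm), b5]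
  · rintro _ ⟨v, hv, rfl⟩
    obtain ⟨u, hu, rfl⟩ := vec3_surj v
    have := h2 u hu
    unfold chkC at this
    simp only [frc_eq, bor_iff, band_iff, blt_iff, beq_iff, bne_iff] at this
    rcases this with h4 | ⟨h4, h5 | h5⟩
    · refine absurd ?_ h4
      rw [hq, ZMod.natCast_eq_natCast_iff'] at hv
      have : Nat.mod (Nat.mul 2 (dot3 n σ u u)) 3 < 3 := Nat.mod_lt _ (by norm_num)
      omega
    · exact ⟨_, h4, by rw [h5]⟩
    · have := (k _ h4).2.2.1
      rw [h5] at this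
      exact ⟨_, h4, by rw [this, refl_smul _ (by decide)]⟩

/-- The form with polar form `Σ x i * y (τ i)`. -/
noncomputable def formQ (τ : Fin n → Fin n) : QuadraticForm (ZMod 3) (Fin n → ZMod 3) :=
  ∑ i, (2 : ZMod 3) • QuadraticMap.proj i (τ i)

theorem formQ_apply (τ : Fin n → Fin n) (x : Fin n → ZMod 3) : formQ τ x = ∑ i, 2 * (x i * x (τ i)) := by
  simp [formQ]

theorem polar_formQ {τ : Fin n → Fin n} (hτ : Function.Involutive τ) (x y : Fin n → ZMod 3) :
    polar (formQ τ) x y = ∑ i, x i * y (τ i) := by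
  have h3 : (3 : ZMod 3) = 0 := rfl
  have : ∑ i, y i * x (τ i) = ∑ i, x i * y (τ i) :=
    (Equiv.sum_comp hτ.toPerm fun i => y i * x (τ i)).symm.trans (by simp [hτ _, mul_comm])
  have h1 : polar (formQ τ) x y = 2 * ∑ i, x i * y (τ i) + 2 * ∑ i, y i * x (τ i) := by
    simp only [polar, formQ_apply, Pi.add_apply, Finset.mul_sum, ← Finset.sum_sub_distrib, ← Finset.sum_add_distrib]
    exact Finset.sum_congr rfl fun i _ => by ring
  rw [h1, this]
  linear_combination (∑ i, x i * y (τ i)) * h3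

theorem nondeg_formQ {τ : Fin n → Fin n} (hτ : Function.Involutive τ) : Nondeg (formQ τ) := fun x hx => funext fun i => by
  have := hx (Pi.single (τ i) 1)
  rw [polar_formQ hτ, Finset.sum_eq_single i (fun j _ hj => by
    rw [Pi.single_eq_of_ne (hτ.injective.ne hj), mul_zero]) (by simp)] at this
  simpa using this

/-- A group realising the same table as the reflections of the form `2 Σ x i ^ 2`. -/
theorem Real.projRefl {G : Type*} [Group G] {D : Set G} {e : ℕ → G} {T : Tab} (h : Real T D e) {c : ZMod 3}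
    {e' : ℕ → OG (formQ (id : Fin n → Fin n))} (h' : Real T {g | ∃ v, formQ id v = c ∧ g = refl _ v} e') :
    IsProjReflectionGroupModThree (Subgroup.closure D ⧸ Subgroup.center (Subgroup.closure D)) n 1 c := by
  have hi : Function.Involutive (id : Fin n → Fin n) := fun _ => rfl
  obtain ⟨f, -⟩ := h.isoZ rfl h' (H' := RR _ c) rfl
  refine ⟨formQ id, ?_, ?_, ⟨f.trans (Lin.quotCenterCongr (((isoEq _).subgroupMap _).trans
    (MulEquiv.subgroupCongr (map_reflectionSubgroup _ c)))).symm⟩⟩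
  · exact ⟨fun x hx => nondeg_formQ hi x hx, fun x hx => nondeg_formQ hi x fun y => (polar_comm _ _ _).trans (hx y)⟩
  · unfold polarGramDet
    rw [show (Matrix.of fun i j : Fin n => polar (formQ (id : Fin n → Fin n)) (Pi.single i 1) (Pi.single j 1)) = 1 by
      ext i j; simp [polar_formQ hi, Pi.single_apply, Matrix.one_apply, eq_comm], Matrix.det_one]

theorem realizeEqns_Fi_Rf3 : True := by
  have := @CA.TC.vec3.eq_1
  have := @CA.TC.vec3.eq_def
  have := @CA.TC.vec3.congr_simp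
  have := @CA.TC.chkC.eq_1
  have := @CA.TC.chkC.eq_def
  have := @CA.TC.chkC.congr_simp
  have := @CA.TC.chkV.eq_1
  have := @CA.TC.chkV.eq_def
  have := @CA.TC.chkV.congr_simp
  have := @CA.TC.dot3.eq_1
  have := @CA.TC.dot3.eq_def
  have := @CA.TC.dot3.congr_simp
  have := @CA.TC.chkRf.eq_1
  have := @CA.TC.chkRf.eq_def
  have := @CA.TC.chkRf.congr_simp
  have := @CA.TC.neg3.eq_1
  have := @CA.TC.neg3.eq_def
  have := @CA.TC.neg3.congr_simp
  have := @CA.TC.formQ.eq_1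
  have := @CA.TC.formQ.eq_def
  have := @CA.TC.formQ.congr_simp
  have := @CA.TC.dg3.eq_1
  have := @CA.TC.dg3.eq_def
  have := @CA.TC.dg3.congr_simp
  trivial

end CA.TC
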