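import Cfsg.Agent.Fi.Rl24
set_option autoImplicit false
set_option maxRecDepth 100000
namespace CA.TC
theorem rl24_c0 : rng (chkRel X24 rl24) 0 5120 7 = true := by decide +kernel
theorem rl24_c1 : rng (chkRel X24 rl24) 5120 10240 7 = true := by decide +kernel
theorem rl24_c2 : rng (chkRel X24 rl24) 10240 15360 7 = true := by decide +kernel
theorem rl24_c3 : rng (chkRel X24 rl24) 15360 20480 7 = true := by decide +kernel
end CA.TC
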