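import Cfsg.Agent.Fi.Rl24
set_option autoImplicit false
set_option maxRecDepth 100000
namespace CA.TC
theorem rl24_c4 : rng (chkRel X24 rl24) 20480 25600 7 = true := by decide +kernel
theorem rl24_c5 : rng (chkRel X24 rl24) 25600 30720 7 = true := by decide +kernel
theorem rl24_c6 : rng (chkRel X24 rl24) 30720 35840 7 = true := by decide +kernel
theorem rl24_c7 : rng (chkRel X24 rl24) 35840 40960 7 = true := by decide +kernel
end CA.TC
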