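import Cfsg.Agent.Fi.Rl24
set_option autoImplicit false
set_option maxRecDepth 100000
namespace CA.TC
theorem rl24_c8 : rng (chkRel X24 rl24) 40960 46080 7 = true := by decide +kernel
theorem rl24_c9 : rng (chkRel X24 rl24) 46080 51200 7 = true := by decide +kernel
theorem rl24_c10 : rng (chkRel X24 rl24) 51200 56320 7 = true := by decide +kernel
theorem rl24_c11 : rng (chkRel X24 rl24) 56320 61440 7 = true := by decide +kernel
end CA.TC
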