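import Cfsg.Agent.Fi.Rl24
set_option autoImplicit false
set_option maxRecDepth 100000
namespace CA.TC
theorem rl24_c12 : rng (chkRel X24 rl24) 61440 66560 7 = true := by decide +kernel
theorem rl24_c13 : rng (chkRel X24 rl24) 66560 71680 7 = true := by decide +kernel
theorem rl24_c14 : rng (chkRel X24 rl24) 71680 76800 7 = true := by decide +kernel
theorem rl24_c15 : rng (chkRel X24 rl24) 76800 81920 7 = true := by decide +kernel
end CA.TC
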