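import Cfsg.Agent.Fi.Rl24
set_option autoImplicit false
set_option maxRecDepth 100000
namespace CA.TC
theorem rl24_c16 : rng (chkRel X24 rl24) 81920 87040 7 = true := by decide +kernel
theorem rl24_c17 : rng (chkRel X24 rl24) 87040 92160 7 = true := by decide +kernel
theorem rl24_c18 : rng (chkRel X24 rl24) 92160 97280 7 = true := by decide +kernel
theorem rl24_c19 : rng (chkRel X24 rl24) 97280 102400 7 = true := by decide +kernel
end CA.TC
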