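import Cfsg.Agent.Fi.Rl24
set_option autoImplicit false
set_option maxRecDepth 100000
namespace CA.TC
theorem rl24_c20 : rng (chkRel X24 rl24) 102400 107520 7 = true := by decide +kernel
theorem rl24_c21 : rng (chkRel X24 rl24) 107520 112640 7 = true := by decide +kernel
theorem rl24_c22 : rng (chkRel X24 rl24) 112640 117760 7 = true := by decide +kernel
theorem rl24_c23 : rng (chkRel X24 rl24) 117760 122880 7 = true := by decide +kernel
end CA.TC
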