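import Cfsg.Agent.Fi.Rl24
set_option autoImplicit false
set_option maxRecDepth 100000
namespace CA.TC
theorem rl24_c24 : rng (chkRel X24 rl24) 122880 128000 7 = true := by decide +kernel
theorem rl24_c25 : rng (chkRel X24 rl24) 128000 133120 7 = true := by decide +kernel
theorem rl24_c26 : rng (chkRel X24 rl24) 133120 138240 7 = true := by decide +kernel
theorem rl24_c27 : rng (chkRel X24 rl24) 138240 143360 7 = true := by decide +kernel
end CA.TC
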