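import Cfsg.Agent.Fi.Rl24
set_option autoImplicit false
set_option maxRecDepth 100000
namespace CA.TC
theorem rl24_c28 : rng (chkRel X24 rl24) 143360 148480 7 = true := by decide +kernel
theorem rl24_c29 : rng (chkRel X24 rl24) 148480 153600 7 = true := by decide +kernel
theorem rl24_c30 : rng (chkRel X24 rl24) 153600 158720 7 = true := by decide +kernel
theorem rl24_c31 : rng (chkRel X24 rl24) 158720 163840 7 = true := by decide +kernel
end CA.TC
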