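import Cfsg.Agent.Fi.Rl24
set_option autoImplicit false
set_option maxRecDepth 100000
namespace CA.TC
theorem rl24_c32 : rng (chkRel X24 rl24) 163840 168960 7 = true := by decide +kernel
theorem rl24_c33 : rng (chkRel X24 rl24) 168960 174080 7 = true := by decide +kernel
theorem rl24_c34 : rng (chkRel X24 rl24) 174080 179200 7 = true := by decide +kernel
theorem rl24_c35 : rng (chkRel X24 rl24) 179200 184320 7 = true := by decide +kernel
end CA.TC
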