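import Cfsg.Agent.Fi.Rl24
set_option autoImplicit false
set_option maxRecDepth 100000
namespace CA.TC
theorem rl24_c36 : rng (chkRel X24 rl24) 184320 189440 7 = true := by decide +kernel
theorem rl24_c37 : rng (chkRel X24 rl24) 189440 194560 7 = true := by decide +kernel
theorem rl24_c38 : rng (chkRel X24 rl24) 194560 199680 7 = true := by decide +kernel
theorem rl24_c39 : rng (chkRel X24 rl24) 199680 204800 7 = true := by decide +kernel
end CA.TC
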