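import Cfsg.Agent.Fi.Rl24
set_option autoImplicit false
set_option maxRecDepth 100000
namespace CA.TC
theorem rl24_c40 : rng (chkRel X24 rl24) 204800 209920 7 = true := by decide +kernel
theorem rl24_c41 : rng (chkRel X24 rl24) 209920 215040 7 = true := by decide +kernel
theorem rl24_c42 : rng (chkRel X24 rl24) 215040 220160 7 = true := by decide +kernel
theorem rl24_c43 : rng (chkRel X24 rl24) 220160 225280 7 = true := by decide +kernel
end CA.TC
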