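import Cfsg.Agent.Fi.Rl24
set_option autoImplicit false
set_option maxRecDepth 100000
namespace CA.TC
theorem rl24_c44 : rng (chkRel X24 rl24) 225280 230400 7 = true := by decide +kernel
theorem rl24_c45 : rng (chkRel X24 rl24) 230400 235520 7 = true := by decide +kernel
theorem rl24_c46 : rng (chkRel X24 rl24) 235520 240640 7 = true := by decide +kernel
theorem rl24_c47 : rng (chkRel X24 rl24) 240640 245760 7 = true := by decide +kernel
end CA.TC
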