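import Cfsg.Agent.Fi.Rl24
set_option autoImplicit false
set_option maxRecDepth 100000
namespace CA.TC
theorem rl24_c48 : rng (chkRel X24 rl24) 245760 250880 7 = true := by decide +kernel
theorem rl24_c49 : rng (chkRel X24 rl24) 250880 256000 7 = true := by decide +kernel
theorem rl24_c50 : rng (chkRel X24 rl24) 256000 261120 7 = true := by decide +kernel
theorem rl24_c51 : rng (chkRel X24 rl24) 261120 266240 7 = true := by decide +kernel
end CA.TC
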