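import Cfsg.Agent.Fi.Rl24
set_option autoImplicit false
set_option maxRecDepth 100000
namespace CA.TC
theorem rl24_c52 : rng (chkRel X24 rl24) 266240 271360 7 = true := by decide +kernel
theorem rl24_c53 : rng (chkRel X24 rl24) 271360 276480 7 = true := by decide +kernel
theorem rl24_c54 : rng (chkRel X24 rl24) 276480 281600 7 = true := by decide +kernel
theorem rl24_c55 : rng (chkRel X24 rl24) 281600 286720 7 = true := by decide +kernel
end CA.TC
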