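import Cfsg.Agent.Fi.Rl24
set_option autoImplicit false
set_option maxRecDepth 100000
namespace CA.TC
theorem rl24_c56 : rng (chkRel X24 rl24) 286720 291840 7 = true := by decide +kernel
theorem rl24_c57 : rng (chkRel X24 rl24) 291840 296960 7 = true := by decide +kernel
theorem rl24_c58 : rng (chkRel X24 rl24) 296960 302080 7 = true := by decide +kernel
theorem rl24_c59 : rng (chkRel X24 rl24) 302080 306936 7 = true := by decide +kernel
end CA.TC
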