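/-
The algebra generated by two Majorana axes.
-/
import Cfsg.Agent.Fi.Maj

set_option autoImplicit false

namespace CA.Fi.Maj

open Cfsg.Axial

variable {V : Type*} [AddCommGroup V] [Module ℝ V] {mul : V →ₗ[ℝ] V →ₗ[ℝ] V}
  {B : LinearMap.BilinForm ℝ V}

theorem orth_eig (hV : IsMajoranaAmbient mul B) {x u w : V} {c d : ℝ} (hu : mul x u = c • u)
    (hw : mul x w = d • w) (h : c ≠ d) : B u w = 0 := by
  have := hV.2.2.2.1 u x w
  rw [hV.1 u x, hu, hw, map_smul, map_smul, LinearMap.smul_apply, smul_eq_mul, smul_eq_mul] at this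
  exact (mul_eq_mul_right_iff.1 this).resolve_left h.symm

namespace Ax

variable {τ : V ≃ₗ[ℝ] V} {x : V} (hx : Ax mul B τ x) {v v' s : V} {l : ℝ} (hv : τ v = v')
  (hs : mul x v = s + (1 / 32 : ℝ) • (x + v)) (hl : B x v = l)
include hx hv hs

theorem mul_tau : mul x v' = s + (1 / 32 : ℝ) • (x + v') := by
  have := hx.odd v
  rw [map_sub, hv, hs] at this
  linear_combination (norm := module) -this

include hl

theorem alpha : mul x ((-4 : ℝ) • s + (3 * l - 1 / 8) • x + (7 / 16 : ℝ) • (v + v')) = 0 := by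
  rw [← hx.zero v, hv, hs, hl]; congr 1; module

theorem beta : mul x ((4 : ℝ) • s + (1 / 8 - 4 * l) • x + (1 / 16 : ℝ) • (v + v')) =
    (1 / 4 : ℝ) • ((4 : ℝ) • s + (1 / 8 - 4 * l) • x + (1 / 16 : ℝ) • (v + v')) := by
  have := hx.quarter v
  rw [hv, hs, hl] at this
  convert this using 2 <;> module

theorem mul_sig : mul x s = (7 / 32 : ℝ) • s + (3 / 4 * l - 25 / 1024) • x + (7 / 2048 : ℝ) • (v + v') := by
  have := hx.alpha hv hs hl
  simp only [map_add, map_smul, hs, hx.mul_tau hv hs, hx.idem] at this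
  linear_combination (norm := module) (-1 / 4 : ℝ) • this

theorem beta_norm (hV : IsMajoranaAmbient mul B) :
    B ((4 : ℝ) • s + (1 / 8 - 4 * l) • x + (1 / 16 : ℝ) • (v + v'))
      ((4 : ℝ) • s + (1 / 8 - 4 * l) • x + (1 / 16 : ℝ) • (v + v')) =
    B ((4 : ℝ) • s + (1 / 8 - 4 * l) • x + (1 / 16 : ℝ) • (v + v')) v := by
  have h1 := orth_eig hV (hx.beta hv hs hl) ((hx.alpha hv hs hl).trans (zero_smul ℝ _).symm) (by norm_num)
  have h2 := orth_eig hV (hx.beta hv hs hl) (hx.idem.trans (one_smul ℝ _).symm) (by norm_num)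
  have h3 := orth_eig hV (hx.beta hv hs hl) (hx.odd v) (by norm_num)
  rw [hv] at h3
  generalize B ((4 : ℝ) • s + (1 / 8 - 4 * l) • x + (1 / 16 : ℝ) • (v + v')) = f at *
  simp only [map_add, map_sub, map_smul, smul_eq_mul] at *
  linear_combination -h1 - l * h2 - (1 / 2) * h3

end Ax

theorem core (hV : IsMajoranaAmbient mul B) {τ : V ≃ₗ[ℝ] V} {x0 x1 y1 x2 y2 s1 se so : V} {l me mo : ℝ}
    (hx : Ax mul B τ x0) (t1 : τ x1 = y1) (t2 : τ x2 = y2)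
    (p1 : mul x0 x1 = s1 + (1 / 32 : ℝ) • (x0 + x1)) (p2 : mul x0 x2 = se + (1 / 32 : ℝ) • (x0 + x2))
    (p3 : mul x1 y1 = so + (1 / 32 : ℝ) • (x1 + y1)) (i1 : mul x1 x1 = x1) (i2 : mul y1 y1 = y1)
    (n1 : B x1 x1 = 1) (b1 : B x0 x1 = l) (b2 : B x0 x2 = me) (b3 : B y1 x1 = mo)
    (q1 : mul x1 s1 = (7 / 32 : ℝ) • s1 + (3 / 4 * l - 25 / 1024) • x1 + (7 / 2048 : ℝ) • (x0 + x2))
    (q2 : mul y1 s1 = (7 / 32 : ℝ) • s1 + (3 / 4 * l - 25 / 1024) • y1 + (7 / 2048 : ℝ) • (x0 + y2)) :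
    mul x0 so = (1 / 6 * l - 19 / 3072) • (x1 + y1) + (7 / 6144 : ℝ) • (x2 + y2) +
      (-32 / 3 * l ^ 2 + 5 / 3 * l - 1 / 24 * mo - 127 / 3072) • x0 + (32 / 3 * l - 19 / 48) • s1 +
      (7 / 96 : ℝ) • se ∧
    mul s1 s1 = (49 / 768 * l - 245 / 196608) • (x1 + y1) + (49 / 196608 : ℝ) • (x2 + y2) +
      (7 / 6 * l ^ 2 - 7 / 384 * l + 7 / 1536 * mo - 7 / 98304) • x0 + (-5 / 12 * l - 13 / 1536) • s1 +
      (-7 / 1536 : ℝ) • se + (7 / 2048 : ℝ) • so := by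
  have ha := hx.alpha t1 p1 b1
  have hb := hx.beta t1 p1 b1
  have f1 := hx.f00 _ _ ha ha
  have f2 := hx.f04 _ _ ha hb
  have f3 := hx.f44 _ _ hb hb
  rw [hx.beta_norm t1 p1 b1 hV] at f3
  have p1' := hx.mul_tau t1 p1
  have p2' := hx.mul_tau t2 p2
  have q0 := hx.mul_sig t1 p1 b1
  have q3 := hx.mul_sig t2 p2 b2
  have hc := hV.1
  have b4 : B s1 x1 = l - (l + 1) / 32 := by
    have := hV.2.2.2.1 x0 x1 x1
    rw [i1, p1] at this
    simp only [map_add, map_smul, LinearMap.add_apply, LinearMap.smul_apply, b1, n1, smul_eq_mul] at this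
    linear_combination -this
  simp only [map_add, map_smul, LinearMap.add_apply, LinearMap.smul_apply, hc s1 x0, hc s1 x1, hc s1 y1,
    hc x1 x0, hc y1 x0, hc y1 x1, p1, p1', p2, p2', p3, i1, i2, q0, q1, q2, q3, hx.idem, b1, b3, b4, n1,
    smul_eq_mul] at f1 f2 f3
  have e1 : mul x0 so = (1 / 6 * l - 19 / 3072) • (x1 + y1) + (7 / 6144 : ℝ) • (x2 + y2) +
      (-32 / 3 * l ^ 2 + 5 / 3 * l - 1 / 24 * mo - 127 / 3072) • x0 + (32 / 3 * l - 19 / 48) • s1 +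
      (7 / 96 : ℝ) • se := by linear_combination (norm := module) (8 / 3 : ℝ) • (f1 - f3)
  rw [e1] at f1 f2
  exact ⟨e1, by linear_combination (norm := module) (1 / 4 : ℝ) • (f1 + f2)⟩

theorem sak_poly {l m : ℝ}
    (p1 : 2097152 * l ^ 4 + 40960 * l ^ 2 * m - 2326528 * l ^ 3 + 8896 * l * m + 184320 * l ^ 2 + 128 * m ^ 2
      - 4800 * l - 167 * m + 39 = 0)
    (p2 : -536870912 * l ^ 5 - 26214400 * l ^ 3 * m + 605028352 * l ^ 4 - 94208 * l * m ^ 2 + 1593344 * l ^ 2 * m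
      - 44138496 * l ^ 3 - 165856 * l * m + 860160 * l ^ 2 - 2784 * m ^ 2 + 2016 * l + 2901 * m - 117 = 0) :
    m = 1 ∨ (l = 13 / 256 ∧ m = 13 / 256) ∨ (l = 1 / 64 ∧ m = 1 / 64) ∨ (l = 1 / 64 ∧ m = 1 / 8) ∨
      (l = 1 / 32 ∧ m = 0) ∨ (l = 3 / 128 ∧ m = 3 / 128) ∨ (l = 5 / 256 ∧ m = 13 / 256) := by
  have q : (3932160 * l ^ 3 + 9031680 * l ^ 2 - 95280 * l - 2925 / 4) * m + (1006632960 * l ^ 5 -
      1061683200 * l ^ 4 + 40919040 * l ^ 3 + 1336320 * l ^ 2 - 73680 * l + 2925 / 4) = 0 := by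
    linear_combination p2 + (736 * l + 87 / 4) * p1
  have r : (l - 1) * ((l - 1 / 8) * (l * ((l - 13 / 256) * ((l - 1 / 64) * ((l - 1 / 64) * ((l - 1 / 32) *
      ((l - 3 / 128) * (l - 5 / 256)))))))) = 0 := by
    linear_combination (-1 / 397217487134077747200) * ((3932160 * l ^ 3 + 9031680 * l ^ 2 - 95280 * l - 2925 / 4) ^ 2 * p1 -
      (128 * ((3932160 * l ^ 3 + 9031680 * l ^ 2 - 95280 * l - 2925 / 4) * m - (1006632960 * l ^ 5 -
      1061683200 * l ^ 4 + 40919040 * l ^ 3 + 1336320 * l ^ 2 - 73680 * l + 2925 / 4)) +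
      (40960 * l ^ 2 + 8896 * l - 167) * (3932160 * l ^ 3 + 9031680 * l ^ 2 - 95280 * l - 2925 / 4)) * q)
  have c64 : l = 1 / 64 → m = 1 / 64 ∨ m = 1 / 8 := fun h => by
    have : (m - 1 / 64) * (m - 1 / 8) = 0 := by rw [h] at p1; linear_combination (1 / 128) * p1
    simpa only [mul_eq_zero, sub_eq_zero] using this
  simp only [mul_eq_zero, sub_eq_zero] at r
  rcases r with h | h | h | h | h | h | h | h | h
  · left; rw [h] at q; linarith
  · left; rw [h] at q; linarith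
  · left; rw [h] at q; linarith
  · right; left; refine ⟨h, ?_⟩; rw [h] at q; linarith
  · have := c64 h; tauto
  · have := c64 h; tauto
  · right; right; right; right; left; refine ⟨h, ?_⟩; rw [h] at q; linarith
  · right; right; right; right; right; left; refine ⟨h, ?_⟩; rw [h] at q; linarith
  · right; right; right; right; right; right; refine ⟨h, ?_⟩; rw [h] at q; linarith

theorem eq_of_form_one (hV : IsMajoranaAmbient mul B) {u v : V} (hu : B u u = 1) (hv : B v v = 1)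
    (h : B u v = 1) : u = v := by
  by_contra hne
  have := hV.2.2.1 _ (sub_ne_zero.2 hne)
  simp only [map_sub, LinearMap.sub_apply, hu, hv, h, hV.2.1 v u] at this
  linarith

theorem sakuma (hV : IsMajoranaAmbient mul B) {t0 t1 : V ≃ₗ[ℝ] V} {a0 a1 : V}
    (x0 : Ax mul B t0 a0) (x1 : Ax mul B t1 a1)
    (m0 : ∀ u v, t0 (mul u v) = mul (t0 u) (t0 v)) (m1 : ∀ u v, t1 (mul u v) = mul (t1 u) (t1 v))
    (f0 : ∀ u v, B (t0 u) (t0 v) = B u v) (f1 : ∀ u v, B (t1 u) (t1 v) = B u v)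
    (s0 : ∀ u, t0 (t0 u) = u) (s1' : ∀ u, t1 (t1 u) = u) :
    t1 a0 = a0 ∨ t1 (t0 a1) = a0 ∨ t1 a0 = t0 (t1 a0) ∨ t1 (t0 a1) = t0 (t1 a0) ∨
      t1 (t0 a1) = t0 (t1 (t0 a1)) := by
  have hc := hV.1
  have hs := hV.2.1
  have has := hV.2.2.2.1
  obtain ⟨b1, e1⟩ : ∃ b, t0 a1 = b := ⟨_, rfl⟩
  obtain ⟨a2, e2⟩ : ∃ b, t1 a0 = b := ⟨_, rfl⟩
  obtain ⟨b2, e3⟩ : ∃ b, t0 a2 = b := ⟨_, rfl⟩
  obtain ⟨a3, e4⟩ : ∃ b, t1 b1 = b := ⟨_, rfl⟩
  obtain ⟨b3, e5⟩ : ∃ b, t0 a3 = b := ⟨_, rfl⟩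
  rw [e1, e2, e3, e4, e5]
  have e0 := x0.fix
  have e0' := x1.fix
  have e1' : t0 b1 = a1 := by rw [← e1, s0]
  have e2' : t1 a2 = a0 := by rw [← e2, s1']
  have e3' : t0 b2 = a2 := by rw [← e3, s0]
  obtain ⟨s1, p01⟩ : ∃ s, mul a0 a1 = s + (1 / 32 : ℝ) • (a0 + a1) := ⟨_, (sub_add_cancel _ _).symm⟩
  obtain ⟨se, p02⟩ : ∃ s, mul a0 a2 = s + (1 / 32 : ℝ) • (a0 + a2) := ⟨_, (sub_add_cancel _ _).symm⟩
  obtain ⟨so, p1b⟩ : ∃ s, mul a1 b1 = s + (1 / 32 : ℝ) • (a1 + b1) := ⟨_, (sub_add_cancel _ _).symm⟩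
  obtain ⟨l, hl⟩ : ∃ l, B a0 a1 = l := ⟨_, rfl⟩
  obtain ⟨me, hme⟩ : ∃ l, B a0 a2 = l := ⟨_, rfl⟩
  obtain ⟨mo, hmo⟩ : ∃ l, B a1 b1 = l := ⟨_, rfl⟩
  obtain ⟨l3, hl3⟩ : ∃ l, B a0 a3 = l := ⟨_, rfl⟩
  obtain ⟨l4, hl4⟩ : ∃ l, B a2 b2 = l := ⟨_, rfl⟩
  obtain ⟨l4', hl4'⟩ : ∃ l, B a3 b1 = l := ⟨_, rfl⟩
  obtain ⟨l5, hl5⟩ : ∃ l, B a3 b2 = l := ⟨_, rfl⟩
  have p10 : mul a1 a0 = s1 + (1 / 32 : ℝ) • (a1 + a0) := by rw [hc, p01, add_comm a0]
  have p0b := x0.mul_tau e1 p01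
  have p0b2 := x0.mul_tau e3 p02
  have p12 := x1.mul_tau e2 p10
  have p13 := x1.mul_tau e4 p1b
  have inv : ∀ (t : V ≃ₗ[ℝ] V), (∀ u v, t (mul u v) = mul (t u) (t v)) → ∀ u v u' v' s, t u = u' → t v = v' →
      mul u v = s + (1 / 32 : ℝ) • (u + v) → mul u' v' = t s + (1 / 32 : ℝ) • (u' + v') := by
    rintro t ht u v _ _ s rfl rfl h
    rw [← ht, h, map_add, map_smul, map_add]
  have i1 : t0 s1 = s1 := add_right_cancel ((inv t0 m0 _ _ _ _ _ e0 e1 p01).symm.trans p0b)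
  have i2 : t1 s1 = s1 := add_right_cancel ((inv t1 m1 _ _ _ _ _ e0' e2 p10).symm.trans p12)
  have i3 : t0 se = se := add_right_cancel ((inv t0 m0 _ _ _ _ _ e0 e3 p02).symm.trans p0b2)
  have i4 : t0 so = so := add_right_cancel ((inv t0 m0 _ _ _ _ _ e1 e1' p1b).symm.trans
    (by rw [hc, p1b, add_comm a1]))
  have pbb := inv t0 m0 _ _ _ _ _ e1 e3 p12
  have p23 := inv t1 m1 _ _ _ _ _ e2 e4 p0b
  rw [i1] at pbb
  rw [i2] at p23
  have g10 : B a1 a0 = l := (hs _ _).trans hl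
  have q0 := x0.mul_sig e1 p01 hl
  have q1 := x1.mul_sig e2 p10 g10
  have qb := congrArg t0 q1
  have q2 := congrArg t1 q0
  simp only [m0, m1, map_add, map_smul, e0, e0', e1, e2, e3, e4, i1, i2] at qb q2
  have q3 := x0.mul_sig e3 p02 hme
  have n0 := x0.norm
  have n1 := x1.norm
  have nb : B b1 b1 = 1 := by rw [← e1, f0, n1]
  have n2 : B a2 a2 = 1 := by rw [← e2, f1, n0]
  have nb2 : B b2 b2 = 1 := by rw [← e3, f0, n2]
  have n3 : B a3 a3 = 1 := by rw [← e4, f1, nb]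
  have g0b : B a0 b1 = l := by rw [← e0, ← e1, f0, hl]
  have g12 : B a1 a2 = l := by rw [← e0', ← e2, f1, g10]
  have gbb : B b1 b2 = l := by rw [← e1, ← e3, f0, g12]
  have g23 : B a2 a3 = l := by rw [← e2, ← e4, f1, g0b]
  have g0b2 : B a0 b2 = me := by rw [← e0, ← e3, f0, hme]
  have g13 : B a1 a3 = mo := by rw [← e0', ← e4, f1, hmo]
  have g2b : B a2 b1 = l3 := by rw [← f1, e2', e4, hl3]
  have g1b2 : B a1 b2 = l3 := by rw [← f0, e1, e3', hs, g2b]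
  have idb : mul b1 b1 = b1 := by rw [← e1, ← m0, x1.idem]
  have id2 : mul a2 a2 = a2 := by rw [← e2, ← m1, x0.idem]
  have id3 : mul a3 a3 = a3 := by rw [← e4, ← m1, idb]
  have idb2 : mul b2 b2 = b2 := by rw [← e3, ← m0, id2]
  obtain ⟨c1, c2⟩ := core hV x0 e1 e3 p01 p02 p1b x1.idem idb n1 hl hme ((hs _ _).trans hmo) q1 qb
  obtain ⟨-, c4⟩ := core hV x1 e2 e4 p10 p1b p02 x0.idem id2 n0 g10 hmo ((hs _ _).trans hme) q0
    (by rw [q2])
  have R : a3 - b2 + (256 * l - 6) • (a2 - b1) + (32768 / 7 * l ^ 2 - 2304 / 7 * l + 128 / 7 * me + 33 / 7) • a1 -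
      (32768 / 7 * l ^ 2 - 2304 / 7 * l + 128 / 7 * mo + 33 / 7) • a0 + (32 : ℝ) • (se - so) = 0 := by
    linear_combination (norm := module) (196608 / 49 : ℝ) • (c2 - c4)
  have fs : ∀ w u v s, mul u v = s + (1 / 32 : ℝ) • (u + v) →
      B w s = B (mul w u) v - (B w u + B w v) / 32 := by
    intro w u v s h
    rw [← has, h]
    simp only [map_add, map_smul, smul_eq_mul]; ring
  have k0 : B a0 s1 = 31 / 32 * l - 1 / 32 := by rw [fs _ _ _ _ p01, x0.idem, hl, n0]; ring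
  have k1 : B a1 s1 = 31 / 32 * l - 1 / 32 := by rw [fs _ _ _ _ p10, x1.idem, g10, n1]; ring
  have kb : B b1 s1 = 31 / 32 * l - 1 / 32 := by rw [← k1, ← e1, ← f0 a1, i1]
  have k2 : B a2 s1 = 31 / 32 * l - 1 / 32 := by rw [← k0, ← e2, ← f1 a0, i2]
  have k3 : B a3 s1 = 31 / 32 * l - 1 / 32 := by rw [← kb, ← e4, ← f1 b1, i2]
  have u0 : B a0 se = 31 / 32 * me - 1 / 32 := by rw [fs _ _ _ _ p02, x0.idem, hme, n0]; ring
  have u2 : B a2 se = 31 / 32 * me - 1 / 32 := by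
    rw [fs _ _ _ _ ((hc _ _).trans (p02.trans (by rw [add_comm a0]))), id2, hs a2 a0, hme, n2]; ring
  have ub2 : B b2 se = 31 / 32 * me - 1 / 32 := by rw [← u2, ← e3, ← f0 a2, i3]
  have u1 : B a1 se = 30 / 32 * l + (me - 1) / 32 := by
    rw [fs _ _ _ _ p02, p10]
    simp only [map_add, map_smul, LinearMap.add_apply, LinearMap.smul_apply, smul_eq_mul, hs s1, k2, g12, g10, hme]
    ring
  have ub : B b1 se = 30 / 32 * l + (me - 1) / 32 := by rw [← u1, ← e1, ← f0 a1, i3]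
  have u3 : B a3 se = 30 / 32 * l + (me - 1) / 32 := by
    rw [fs _ _ _ _ ((hc _ _).trans (p02.trans (by rw [add_comm a0]))), hc a3, p23]
    simp only [map_add, map_smul, LinearMap.add_apply, LinearMap.smul_apply, smul_eq_mul, hs s1, k0, hs a2 a0,
      hs a3 a0, hs a3 a2, g23, hme, hl3]
    ring
  have v1 : B a1 so = 31 / 32 * mo - 1 / 32 := by rw [fs _ _ _ _ p1b, x1.idem, hmo, n1]; ring
  have vb : B b1 so = 31 / 32 * mo - 1 / 32 := by rw [← v1, ← e1, ← f0 a1, i4]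
  have v0 : B a0 so = 30 / 32 * l + (mo - 1) / 32 := by
    rw [fs _ _ _ _ p1b, p01]
    simp only [map_add, map_smul, LinearMap.add_apply, LinearMap.smul_apply, smul_eq_mul, hs s1, kb, g0b, hl, hmo]
    ring
  have v2 : B a2 so = 30 / 32 * l + (mo - 1) / 32 := by
    rw [fs _ _ _ _ p1b, hc a2, p12]
    simp only [map_add, map_smul, LinearMap.add_apply, LinearMap.smul_apply, smul_eq_mul, hs s1, kb, g2b, hmo,
      hs a2 a1, g12]
    ring
  have vb2 : B b2 so = 30 / 32 * l + (mo - 1) / 32 := by rw [← v2, ← e3, ← f0 a2, i4]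
  have r0 := congrArg (B a0) R
  have r1 := congrArg (B a1) R
  have r2 := congrArg (B a2) R
  have rb := congrArg (B b1) R
  have rb2 := congrArg (B b2) R
  have S := congrArg (mul a0) R
  simp only [map_add, map_sub, map_smul, map_zero, p01, p0b, p02, p0b2, x0.idem, q3, c1] at S
  have S2 := congrArg (B a2) S
  have S3 := congrArg (B a3) S
  have w2 : B a2 (mul a0 a3) = 31 / 32 * l - 1 / 32 + (me + l3) / 32 := by
    rw [hc, has, p23]
    simp only [map_add, map_smul, LinearMap.add_apply, LinearMap.smul_apply, smul_eq_mul, hs s1, k0, hs a2 a0,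
      hs a3 a0, hme, hl3]
    ring
  have w3 : B a3 (mul a0 a3) = l3 := by rw [hc, has, id3, hs, hl3]
  simp only [map_add, map_sub, map_smul, map_zero, smul_eq_mul, n0, n1, n2, n3, nb2, hl, hme, hmo, hl3, hl4,
    hl4', hl5, g10, g0b, g12, g23, g0b2, g13, g2b, g1b2, hs a2 a0, hs a2 a1, hs a3 a0, hs a3 a1, hs a3 a2,
    hs b2 a3, hs b2 a2, hs b2 b1, hs b2 a1, hs b2 a0, gbb, k2, k3, u0, u1, u2, u3, ub2, v0, v1, v2, vb2, w2,
    w3, nb, hs b1 a3, hs b1 a2, hs b1 a1, hs b1 a0, ub, vb] at r0 r1 r2 rb rb2 S2 S3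
  have hl0 : 0 ≤ l := by
    have h1 := hV.2.2.2.2 a0 a1
    rw [x0.idem, x1.idem, hl] at h1
    refine le_trans ?_ h1
    by_cases h : mul a0 a1 = 0
    · rw [h]; simp
    · exact (hV.2.2.1 _ h).le
  obtain rfl : me = mo := by
    have : (1920 / 7 * l + 303 / 7) * (me - mo) = 0 := by linear_combination r0 + r1
    exact sub_eq_zero.1 ((mul_eq_zero.1 this).resolve_left (by positivity))
  have d3 : l3 = -32768 / 7 * l ^ 3 - 1920 / 7 * l * me + 36864 / 7 * l ^ 2 - 2169 / 7 * l - 33 / 7 * me +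
      33 / 7 := by linear_combination r0
  subst d3
  have d4 : l4 = 8388608 / 7 * l ^ 4 + 65536 * l ^ 2 * me - 9601024 / 7 * l ^ 3 - 640 / 7 * l * me +
      110592 * l ^ 2 - 128 / 7 * me ^ 2 - 19840 / 7 * l - 3 * me + 156 / 7 := by linear_combination -r2
  subst d4
  have d5 : l5 = -13958643712 / 49 * l ^ 5 - 754974720 / 49 * l ^ 3 * me + 16273899520 / 49 * l ^ 4 +
      475136 / 49 * l * me ^ 2 + 12582912 / 49 * l ^ 2 * me - 1633419264 / 49 * l ^ 3 + 259584 / 49 * l * me +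
      8683520 / 7 * l ^ 2 - 256 / 49 * me ^ 2 - 137721 / 7 * l - 5256 / 49 * me + 5512 / 49 := by
    linear_combination rb2
  subst d5
  have d4' : l4' = 8388608 / 7 * l ^ 4 + 65536 * l ^ 2 * me - 9601024 / 7 * l ^ 3 - 640 / 7 * l * me +
      110592 * l ^ 2 - 128 / 7 * me ^ 2 - 19840 / 7 * l - 3 * me + 156 / 7 := by linear_combination rb
  subst d4'
  rcases sak_poly (l := l) (m := me) (by linear_combination (56 / 3) * S2) (by linear_combination (196 / 3) * S3)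
    with h | ⟨rfl, rfl⟩ | ⟨rfl, rfl⟩ | ⟨rfl, rfl⟩ | ⟨rfl, rfl⟩ | ⟨rfl, rfl⟩ | ⟨rfl, rfl⟩
  · exact Or.inl (eq_of_form_one hV n0 n2 (hme.trans h)).symm
  · exact Or.inr (Or.inl (eq_of_form_one hV n0 n3 (by rw [hl3]; norm_num)).symm)
  · exact Or.inr (Or.inl (eq_of_form_one hV n0 n3 (by rw [hl3]; norm_num)).symm)
  · exact Or.inr (Or.inr (Or.inl (eq_of_form_one hV n2 nb2 (by rw [hl4]; norm_num))))
  · exact Or.inr (Or.inr (Or.inl (eq_of_form_one hV n2 nb2 (by rw [hl4]; norm_num))))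
  · exact Or.inr (Or.inr (Or.inr (Or.inl (eq_of_form_one hV n3 nb2 (by rw [hl5]; norm_num)))))
  · have R' := congrArg t0 R
    simp only [map_add, map_sub, map_smul, map_zero, e0, e1, e3, e5, e1', e3', i3, i4] at R'
    exact Or.inr (Or.inr (Or.inr (Or.inr (by linear_combination (norm := module) R - R'))))

end CA.Fi.Maj
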