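/-
Fischer spaces and 3-transpositions.
-/
import Cfsg.Agent.Fi.Basic
import Cfsg.Agent.Fi.H54

set_option autoImplicit false

namespace CA.Fi

open Cfsg Subgroup LineSystem

universe u v

section Group

variable {G : Type u} [Group G] {D : Set G}

/-- The line through two non-commuting members. -/
def ln (D : Set G) (x y : G) : Set D := {z | (z : G) = x ∨ (z : G) = y ∨ (z : G) = cj y x}

theorem mem_lines {l : Set D} :
    l ∈ threeTranspositionLines D ↔ ∃ x ∈ D, ∃ y ∈ D, ¬ Commute x y ∧ l = ln D x y :=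
  ⟨fun ⟨x, y, h, e⟩ => ⟨x, x.2, y, y.2, h, e⟩, fun ⟨x, hx, y, hy, h, e⟩ => ⟨⟨x, hx⟩, ⟨y, hy⟩, h, e⟩⟩

theorem ln_eq (hD : IsThreeTranspositionSet D) {x y : G} (hx : x ∈ D) (hy : y ∈ D) (h : ¬ Commute x y)
    {u v : D} (hu : u ∈ ln D x y) (hv : v ∈ ln D x y) (huv : u ≠ v) :
    ¬ Commute (u : G) v ∧ ln D x y = ln D u v := by
  have e1 : cj x y = cj y x := tt_cj_comm hD hx hy h
  have e2 : cj x (cj y x) = y := by rw [← e1, tt_cj_cj hD hx]
  have e3 : cj y (cj y x) = x := tt_cj_cj hD hy x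
  have n2 : ¬ Commute x (cj y x) := e1 ▸ tt_not_commute_cj hD hx h
  have n3 : ¬ Commute y (cj y x) := tt_not_commute_cj hD hy (fun e => h e.symm)
  have huv' : (u : G) ≠ v := fun e => huv (Subtype.ext e)
  rcases hu with hu | hu | hu <;> rcases hv with hv | hv | hv
  · exact absurd (hu.trans hv.symm) huv'
  · rw [hu, hv]; exact ⟨h, rfl⟩
  · have := tt_cj_comm hD u.2 v.2
    rw [hu, hv] at this ⊢
    refine ⟨n2, Set.ext fun z => ?_⟩
    simp only [ln, Set.mem_setOf_eq, ← this n2, e2]; tauto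
  · rw [hu, hv]
    refine ⟨fun e => h e.symm, Set.ext fun z => ?_⟩
    simp only [ln, Set.mem_setOf_eq, e1]; tauto
  · exact absurd (hu.trans hv.symm) huv'
  · have := tt_cj_comm hD u.2 v.2
    rw [hu, hv] at this ⊢
    refine ⟨n3, Set.ext fun z => ?_⟩
    simp only [ln, Set.mem_setOf_eq, ← this n3, e3]; tauto
  · rw [hu, hv]
    refine ⟨fun e => n2 e.symm, Set.ext fun z => ?_⟩
    simp only [ln, Set.mem_setOf_eq, e2]; tauto
  · rw [hu, hv]
    refine ⟨fun e => n3 e.symm, Set.ext fun z => ?_⟩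
    simp only [ln, Set.mem_setOf_eq, e3]; tauto
  · exact absurd (hu.trans hv.symm) huv'

theorem lines_partialLinear (hD : IsThreeTranspositionSet D) :
    IsPartialLinear (threeTranspositionLines D) := by
  intro l hl m hm x y hxy h1 h2 h3 h4
  obtain ⟨a, ha, b, hb, hab, rfl⟩ := mem_lines.1 hl
  obtain ⟨c, hc, d, hd, hcd, rfl⟩ := mem_lines.1 hm
  rw [(ln_eq hD ha hb hab h1 h2 hxy).2, (ln_eq hD hc hd hcd h3 h4 hxy).2]

theorem ln_ne (hD : IsThreeTranspositionSet D) {x y : G} (hx : x ∈ D) (hy : y ∈ D) (h : ¬ Commute x y) :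
    x ≠ y ∧ x ≠ cj y x ∧ y ≠ cj y x := by
  refine ⟨fun e => h (e ▸ Commute.refl x), fun e => h (cj_eq_iff.1 e.symm).symm, fun e => ?_⟩
  rw [← tt_cj_comm hD hx hy h] at e
  exact h (cj_eq_iff.1 e.symm)

theorem lines_ncard (hD : IsThreeTranspositionSet D) (hc : ConjInv D) {l : Set D}
    (hl : l ∈ threeTranspositionLines D) : l.ncard = 3 := by
  obtain ⟨a, ha, b, hb, hab, rfl⟩ := mem_lines.1 hl
  obtain ⟨h1, h2, h3⟩ := ln_ne hD ha hb hab
  refine Set.ncard_eq_three.2 ⟨⟨a, ha⟩, ⟨b, hb⟩, ⟨_, hc.cj b ha⟩, by simpa, by simpa, by simpa, ?_⟩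
  ext z
  simp [ln, Subtype.ext_iff]

theorem exists_ln (hD : IsThreeTranspositionSet D) {l : Set D} (hl : l ∈ threeTranspositionLines D)
    {a : D} (ha : a ∈ l) : ∃ b ∈ D, ¬ Commute (a : G) b ∧ l = ln D a b := by
  obtain ⟨x, hx, y, hy, hxy, rfl⟩ := mem_lines.1 hl
  by_cases h : (a : G) = x
  · exact ⟨y, hy, h ▸ hxy, h ▸ rfl⟩
  · exact ⟨x, hx, ln_eq hD hx hy hxy ha (v := ⟨x, hx⟩) (Or.inl rfl) (fun e => h (congrArg Subtype.val e))⟩

/-- Transfer of a finite model to the plane spanned by two lines. -/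
theorem iso_of_model (hD : IsThreeTranspositionSet D) {Y : Type v} (M : Set (Set Y)) (F : Y → G)
    (hF : Function.Injective F) (hFD : ∀ y, F y ∈ D) (th : Y → Y → Y)
    (hth : ∀ u v, F (th u v) = cj (F v) (F u))
    (hM : ∀ l, l ∈ M ↔ ∃ u v, th u v ≠ u ∧ l = {w | w = u ∨ w = v ∨ w = th u v})
    {y0 y1 y2 : Y} (hgen : ∀ y, ∃ u v, (u = y0 ∨ u = y1 ∨ u = th y0 y1) ∧
      (v = y0 ∨ v = y2 ∨ v = th y0 y2) ∧ y = th u v) :
    Isomorphic (restrict (threeTranspositionLines D)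
      (span (threeTranspositionLines D) (ln D (F y0) (F y1) ∪ ln D (F y0) (F y2)))) M := by
  set L := threeTranspositionLines D
  let F' : Y → D := fun y => ⟨F y, hFD y⟩
  have hF' : Function.Injective F' := fun a b e => hF (congrArg Subtype.val e)
  have hne : ∀ u v, th u v ≠ u ↔ ¬ Commute (F u) (F v) := fun u v => by
    rw [← hF.ne_iff, hth, Ne, cj_eq_iff, commute_iff_eq, commute_iff_eq, eq_comm]
  have hln : ∀ u v w, F' w ∈ ln D (F u) (F v) ↔ w = u ∨ w = v ∨ w = th u v := fun u v w => by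
    simp only [ln, Set.mem_setOf_eq, F', ← hth, hF.eq_iff]
  have hsub : ∀ u v, ln D (F u) (F v) ⊆ Set.range F' := by
    rintro u v z (h | h | h)
    exacts [⟨u, Subtype.ext h.symm⟩, ⟨v, Subtype.ext h.symm⟩, ⟨th u v, Subtype.ext ((hth u v).trans h.symm)⟩]
  have hspan : span L (ln D (F y0) (F y1) ∪ ln D (F y0) (F y2)) = Set.range F' := by
    apply Set.Subset.antisymm
    · refine Set.sInter_subset_of_mem ⟨Set.union_subset (hsub _ _) (hsub _ _), ?_⟩
      rintro l hl _ ⟨u, rfl⟩ _ ⟨v, rfl⟩ huv hu hv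
      obtain ⟨a, ha, b, hb, hab, rfl⟩ := mem_lines.1 hl
      rw [(ln_eq hD ha hb hab hu hv huv).2]
      exact hsub u v
    · rintro _ ⟨y, rfl⟩ T ⟨hT, hT'⟩
      obtain ⟨u, v, hu, hv, rfl⟩ := hgen y
      have h1 : F' u ∈ T := hT (Or.inl ((hln _ _ _).2 hu))
      have h2 : F' v ∈ T := hT (Or.inr ((hln _ _ _).2 hv))
      by_cases e : th u v = u
      · rwa [e]
      · have hc := (hne u v).1 e
        exact hT' _ (mem_lines.2 ⟨_, hFD u, _, hFD v, hc, rfl⟩) _ h1 _ h2
          (fun e => hc (by rw [hF' e])) (Or.inl rfl) (Or.inr (Or.inl rfl))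
          ((hln _ _ _).2 (Or.inr (Or.inr rfl)))
  rw [hspan]
  refine ⟨(Equiv.ofInjective F' hF').symm, fun l => ?_⟩
  rw [hM, Equiv.image_eq_preimage_symm, Equiv.symm_symm]
  constructor
  · rintro ⟨l', hl', hsub', rfl⟩
    obtain ⟨a, ha, b, hb, hab, rfl⟩ := mem_lines.1 hl'
    obtain ⟨u, hu⟩ := hsub' (a := ⟨a, ha⟩) (Or.inl rfl)
    obtain ⟨v, hv⟩ := hsub' (a := ⟨b, hb⟩) (Or.inr (Or.inl rfl))
    obtain rfl : F u = a := congrArg Subtype.val hu
    obtain rfl : F v = b := congrArg Subtype.val hv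
    exact ⟨u, v, (hne u v).2 hab, Set.ext fun w => hln u v w⟩
  · rintro ⟨u, v, huv, e⟩
    refine ⟨_, mem_lines.2 ⟨_, hFD u, _, hFD v, (hne u v).1 huv, rfl⟩, hsub u v, Set.ext fun z => ?_⟩
    obtain ⟨w, rfl⟩ := (Equiv.ofInjective F' hF').surjective z
    exact (Set.ext_iff.1 e w).trans (hln u v w).symm

/-- The third point in the affine plane of order three. -/
def thA (u v : Fin 2 → ZMod 3) : Fin 2 → ZMod 3 := -u - v

theorem affine_lines (l : Set (Fin 2 → ZMod 3)) :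
    l ∈ affinePlaneThree ↔ ∃ u v, thA u v ≠ u ∧ l = {w | w = u ∨ w = v ∨ w = thA u v} := by
  have k1 : ∀ v w : Fin 2 → ZMod 3, w ≠ 0 → thA v (v + w) ≠ v ∧
      ∀ x, (∃ c : ZMod 3, x = v + c • w) ↔ (x = v ∨ x = v + w ∨ x = thA v (v + w)) := by decide +kernel
  have k2 : ∀ u v : Fin 2 → ZMod 3, thA u v ≠ u → v - u ≠ 0 ∧
      ∀ x, (x = u ∨ x = v ∨ x = thA u v) ↔ (∃ c : ZMod 3, x = u + c • (v - u)) := by decide +kernel
  constructor
  · rintro ⟨v, w, hw, rfl⟩
    exact ⟨v, v + w, (k1 v w hw).1, Set.ext (k1 v w hw).2⟩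
  · rintro ⟨u, v, h, rfl⟩
    exact ⟨u, v - u, (k2 u v h).1, Set.ext (k2 u v h).2⟩

/-- The transposition attached to a point of the dual affine plane of order two. -/
def swD (s : DualAffinePoint) : Equiv.Perm (Fin 4) :=
  Equiv.swap (if 0 ∈ s.1 then 0 else if 1 ∈ s.1 then 1 else 2) (if 3 ∈ s.1 then 3 else if 2 ∈ s.1 then 2 else 1)

/-- The third point in the dual affine plane of order two. -/
def thD (u v : DualAffinePoint) : DualAffinePoint :=
  ⟨u.1.map (swD v).toEmbedding, by rw [Finset.card_map, u.2]⟩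

theorem dual_lines (l : Set DualAffinePoint) :
    l ∈ dualAffinePlaneTwo ↔ ∃ u v, thD u v ≠ u ∧ l = {w | w = u ∨ w = v ∨ w = thD u v} := by
  have k1 : ∀ i : Fin 4, ∃ u v, thD u v ≠ u ∧
      ∀ x : DualAffinePoint, i ∉ x.1 ↔ (x = u ∨ x = v ∨ x = thD u v) := by decide +kernel
  have k2 : ∀ u v, thD u v ≠ u → ∃ i : Fin 4,
      ∀ x : DualAffinePoint, (x = u ∨ x = v ∨ x = thD u v) ↔ i ∉ x.1 := by decide +kernel
  constructor
  · rintro ⟨i, rfl⟩
    obtain ⟨u, v, h, h'⟩ := k1 i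
    exact ⟨u, v, h, Set.ext h'⟩
  · rintro ⟨u, v, h, rfl⟩
    obtain ⟨i, hi⟩ := k2 u v h
    exact ⟨i, Set.ext hi⟩

theorem plane_dual (hD : IsThreeTranspositionSet D) (hc : ConjInv D) {a b c : G} (ha : a ∈ D)
    (hb : b ∈ D) (hc' : c ∈ D) (hab : ¬ Commute a b) (hac : ¬ Commute a c) (hbc : Commute b c)
    (hne : b ≠ c) :
    Isomorphic (restrict (threeTranspositionLines D)
      (span (threeTranspositionLines D) (ln D a b ∪ ln D a c))) dualAffinePlaneTwo := by
  obtain ⟨φ, hφ, h1, h2, h3⟩ := tt_string hD hb ha hc' hne hbc (fun e => hab e.symm) hac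
  have k1 : Function.Injective swD := by
    have : ∀ u v, swD u = swD v → u = v := by decide +kernel
    exact this
  have k2 : ∀ u v, swD (thD u v) = swD v * swD u * (swD v)⁻¹ := by decide +kernel
  have k3 : ∀ u, ∃ g : Equiv.Perm (Fin 4), swD u = g * Equiv.swap 1 2 * g⁻¹ := by decide +kernel
  have := iso_of_model hD dualAffinePlaneTwo (fun s => φ (swD s)) (hφ.comp k1)
    (fun s => by
      obtain ⟨g, hg⟩ := k3 s
      simp only [hg, map_mul, map_inv, h2]
      exact hc _ _ ha) thD (fun u v => by simp only [k2, map_mul, map_inv, cj]) dual_lines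
    (y0 := ⟨{1, 2}, rfl⟩) (y1 := ⟨{0, 1}, rfl⟩) (y2 := ⟨{2, 3}, rfl⟩) (by decide +kernel)
  rw [← h1, ← h2, ← h3]
  exact this

theorem plane_affine (hD : IsThreeTranspositionSet D) (hc : ConjInv D) {a b c : G} (ha : a ∈ D)
    (hb : b ∈ D) (hc' : c ∈ D) (hab : ¬ Commute a b) (hac : ¬ Commute a c) (hbc : ¬ Commute b c)
    (hbc' : ¬ Commute b (cj a c)) (hne : (⟨c, hc'⟩ : D) ∉ ln D a b) :
    Isomorphic (restrict (threeTranspositionLines D)
      (span (threeTranspositionLines D) (ln D a b ∪ ln D a c))) affinePlaneThree := by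
  obtain ⟨φ, h1, h2, h3, -⟩ := exists_hom_H54 (tt_sq hD ha) (tt_sq hD hb) (tt_sq hD hc')
    (tt_braid hD ha hb hab) (tt_braid hD ha hc' hac) (tt_braid hD hb hc' hbc)
    (by rw [← tt_cj_eq hD ha]; exact tt_braid hD hb (hc.cj a hc') hbc')
  let P : (Fin 2 → ZMod 3) → H54 := fun u => H54.pt (u 0) (u 1)
  have k2 : ∀ u v, P (thA u v) = P v * P u * (P v)⁻¹ := by decide +kernel
  have k2' : ∀ u v, P (thA u v) = P u * P v * (P u)⁻¹ := by decide +kernel
  have k3 : ∀ u, ∃ g : H54, P u = g * H54.pt 0 0 * g⁻¹ := by decide +kernel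
  have k4 : ∀ u v : Fin 2 → ZMod 3, u ≠ v → ∃ w, (P (thA w u) = H54.pt 0 0 ∧ P (thA w v) = H54.pt 1 0) ∨
      (P (thA w v) = H54.pt 0 0 ∧ P (thA w u) = H54.pt 1 0) ∨
      ((P (thA w u) = H54.pt 0 1 ∧ thA w v 1 = 0) ∨ (P (thA w v) = H54.pt 0 1 ∧ thA w u 1 = 0)) := by
    decide +kernel
  have k5 : ∀ u : Fin 2 → ZMod 3, u 1 = 0 → P u = H54.pt 0 0 ∨ P u = H54.pt 1 0 ∨
      P u = H54.pt 1 0 * H54.pt 0 0 * (H54.pt 1 0)⁻¹ := by decide +kernel
  have k6 : ∀ u : Fin 2 → ZMod 3, u 1 = 0 → φ (P u) ≠ c := by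
    intro u hu e
    apply hne
    rcases k5 u hu with h | h | h <;> rw [h] at e
    · exact Or.inl (e.symm.trans h1)
    · exact Or.inr (Or.inl (e.symm.trans h2))
    · refine Or.inr (Or.inr (e.symm.trans ?_))
      simp only [map_mul, map_inv, h1, h2, cj]
  have := iso_of_model hD affinePlaneThree (fun s => φ (P s))
    (fun u v e => by
      by_contra huv
      obtain ⟨w, hw⟩ := k4 u v huv
      have e' : φ (P (thA w u)) = φ (P (thA w v)) := by
        simp only [k2', map_mul, map_inv]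
        rw [show φ (P u) = φ (P v) from e]
      rcases hw with h | h | h | h
      · rw [h.1, h.2, h1, h2] at e'
        exact hab (e' ▸ Commute.refl a)
      · rw [h.1, h.2, h1, h2] at e'
        exact hab (e' ▸ Commute.refl b)
      · exact k6 _ h.2 (by rw [← e', h.1, h3])
      · exact k6 _ h.2 (by rw [e', h.1, h3]))
    (fun s => by
      obtain ⟨g, hg⟩ := k3 s
      simp only [hg, map_mul, map_inv, h1]
      exact hc _ _ ha) thA (fun u v => by simp only [k2, map_mul, map_inv, cj]) affine_lines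
    (y0 := ![0, 0]) (y1 := ![1, 0]) (y2 := ![0, 1]) (by decide +kernel)
  rw [← h1, ← h2, ← h3]
  exact this

theorem lines_fischer (hD : IsThreeTranspositionSet D) (hc : ConjInv D) :
    IsFischerSpace (threeTranspositionLines D) := by
  refine ⟨lines_partialLinear hD, fun l hl => lines_ncard hD hc hl, ?_⟩
  rintro l hl m hm hlm ⟨a, hal, ham⟩
  obtain ⟨b, hb, hab, rfl⟩ := exists_ln hD hl hal
  have key : ∀ c (hc' : c ∈ D), ¬ Commute (a : G) c → ln D a b ≠ ln D a c → (⟨c, hc'⟩ : D) ∉ ln D a b :=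
    fun c hc' hac h h' => h (ln_eq hD a.2 hb hab (u := a) (Or.inl rfl) h'
      (fun e => hac (by rw [e]))).2
  obtain ⟨c, hc', hac, rfl⟩ := exists_ln hD hm ham
  by_cases h1 : Commute b c
  · exact Or.inl (plane_dual hD hc a.2 hb hc' hab hac h1 fun e => hlm (by rw [e]))
  by_cases h2 : Commute b (cj a c)
  · have e := ln_eq hD a.2 hc' hac (u := a) (v := ⟨_, hc.cj a hc'⟩) (Or.inl rfl)
      (Or.inr (Or.inr (tt_cj_comm hD a.2 hc' hac)))
      (fun e => tt_not_commute_cj hD a.2 hac (by rw [show cj (a : G) c = a from (congrArg Subtype.val e).symm]))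
    rw [e.2] at hlm ⊢
    exact Or.inl (plane_dual hD hc a.2 hb (hc.cj a hc') hab e.1 h2 fun e => hlm (by rw [e]))
  · exact Or.inr (plane_affine hD hc a.2 hb hc' hab hac h1 h2 (key c hc' hac hlm))

end Group

section Lines

variable {X : Type u} {L : Set (Set X)}

/-- `x, y, z` are the three points of a line. -/
def Col (L : Set (Set X)) (x y z : X) : Prop := z ≠ x ∧ z ≠ y ∧ x ≠ y ∧ ({x, y, z} : Set X) ∈ L

theorem col_lineMap {x y : X} (h : ∃ z, Col L x y z) : Col L x y (lineMap L x y) := by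
  have h' : ∃ z : X, z ≠ x ∧ z ≠ y ∧ x ≠ y ∧ ({x, y, z} : Set X) ∈ L := h
  have e : lineMap L x y = h'.choose := dif_pos h'
  rw [e]; exact h'.choose_spec

theorem lineMap_of_not {x y : X} (h : ¬ ∃ z, Col L x y z) : lineMap L x y = y := dif_neg h

theorem Col.unique (hL : IsPartialLinear L) {x y z w : X} (h : Col L x y z) (h' : Col L x y w) : z = w := by
  have := hL _ h.2.2.2 _ h'.2.2.2 x y h.2.2.1 (by simp) (by simp) (by simp) (by simp)
  have hz : z ∈ ({x, y, w} : Set X) := this ▸ (by simp)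
  simpa [h.1, h.2.1] using hz

theorem Col.lineMap_eq (hL : IsPartialLinear L) {x y z : X} (h : Col L x y z) : lineMap L x y = z :=
  (col_lineMap ⟨z, h⟩).unique hL h

theorem Col.swap23 {x y z : X} (h : Col L x y z) : Col L x z y :=
  ⟨h.2.2.1.symm, h.2.1.symm, h.1.symm, by rw [Set.pair_comm z y]; exact h.2.2.2⟩

theorem Col.swap12 {x y z : X} (h : Col L x y z) : Col L y x z :=
  ⟨h.2.1, h.1, h.2.2.1.symm, by rw [Set.insert_comm]; exact h.2.2.2⟩

theorem lineMap_invol (hL : IsPartialLinear L) (x : X) : Function.Involutive (lineMap L x) := by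
  intro y
  by_cases h : ∃ z, Col L x y z
  · exact (col_lineMap h).swap23.lineMap_eq hL
  · rw [lineMap_of_not h, lineMap_of_not h]

theorem exists_col {l : Set X} (hl : l ∈ L) (h3 : l.ncard = 3) {x y : X} (hx : x ∈ l) (hy : y ∈ l)
    (hxy : x ≠ y) : ∃ z, Col L x y z ∧ l = {x, y, z} := by
  obtain ⟨a, b, c, hab, hac, hbc, rfl⟩ := Set.ncard_eq_three.1 h3
  have h : Col L a b c := ⟨hac.symm, hbc.symm, hab, hl⟩
  rcases hx with rfl | rfl | rfl <;> rcases hy with rfl | rfl | rfl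
  · exact absurd rfl hxy
  · exact ⟨_, h, rfl⟩
  · exact ⟨_, h.swap23, by ext; simp; tauto⟩
  · exact ⟨_, h.swap12, by ext; simp; tauto⟩
  · exact absurd rfl hxy
  · exact ⟨_, h.swap12.swap23, by ext; simp; tauto⟩
  · exact ⟨_, h.swap23.swap12, by ext; simp; tauto⟩
  · exact ⟨_, h.swap12.swap23.swap12, by ext; simp; tauto⟩
  · exact absurd rfl hxy

theorem exists_col' {l : Set X} (hl : l ∈ L) (h3 : l.ncard = 3) {x : X} (hx : x ∈ l) :
    ∃ y z, Col L x y z ∧ l = {x, y, z} := by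
  obtain ⟨y, hy, hyx⟩ := Set.exists_ne_of_one_lt_ncard (s := l) (by omega) x
  exact ⟨y, exists_col hl h3 hx hy hyx.symm⟩

theorem col_iso {Y : Type v} {M : Set (Set Y)} {e : X ≃ Y} (he : IsIso L M e) {x y z : X} :
    Col M (e x) (e y) (e z) ↔ Col L x y z := by
  simp only [Col, e.injective.ne_iff, he {x, y, z}, Set.image_insert_eq, Set.image_singleton]

theorem lineMap_iso (hL : IsPartialLinear L) {Y : Type v} {M : Set (Set Y)} {e : X ≃ Y}
    (he : IsIso L M e) (x y : X) : e (lineMap L x y) = lineMap M (e x) (e y) := by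
  by_cases h : ∃ z, Col M (e x) (e y) z
  · have := col_lineMap h
    rw [← e.apply_symm_apply (lineMap M (e x) (e y)), col_iso he] at this
    rw [this.lineMap_eq hL, e.apply_symm_apply]
  · rw [lineMap_of_not h, lineMap_of_not fun ⟨z, hz⟩ => h ⟨e z, (col_iso he).2 hz⟩]

theorem mem_restrict {S : Set X} {l : Set S} : l ∈ restrict L S ↔ Subtype.val '' l ∈ L := by
  constructor
  · rintro ⟨m, hm, hS, rfl⟩
    rwa [show Subtype.val '' {x : S | (x : X) ∈ m} = m from by
      ext x; exact ⟨fun ⟨y, hy, e⟩ => e ▸ hy, fun hx => ⟨⟨x, hS hx⟩, hx, rfl⟩⟩]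
  · intro h
    exact ⟨_, h, by rintro _ ⟨y, -, rfl⟩; exact y.2, by ext; simp⟩

theorem col_restrict {S : Set X} {x y z : S} : Col (restrict L S) x y z ↔ Col L x y z := by
  simp only [Col, mem_restrict, Set.image_insert_eq, Set.image_singleton, ne_eq, Subtype.ext_iff]

theorem restrict_partialLinear (hL : IsPartialLinear L) (S : Set X) : IsPartialLinear (restrict L S) := by
  intro l hl m hm x y hxy h1 h2 h3 h4
  exact Subtype.val_injective.image_injective (hL _ (mem_restrict.1 hl) _ (mem_restrict.1 hm) x y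
    (fun e => hxy (Subtype.ext e)) ⟨_, h1, rfl⟩ ⟨_, h2, rfl⟩ ⟨_, h3, rfl⟩ ⟨_, h4, rfl⟩)

theorem lineMap_restrict (hL : IsPartialLinear L) {S : Set X} (hS : IsSubspace L S) (x y : S) :
    ((lineMap (restrict L S) x y : S) : X) = lineMap L x y := by
  by_cases h : ∃ z, Col (restrict L S) x y z
  · exact ((col_restrict.1 (col_lineMap h)).lineMap_eq hL).symm
  · rw [lineMap_of_not h, lineMap_of_not]
    rintro ⟨z, hz⟩
    exact h ⟨⟨z, hS _ hz.2.2.2 x x.2 y y.2 hz.2.2.1 (by simp) (by simp) (by simp)⟩, col_restrict.2 hz⟩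

theorem span_subspace (S : Set X) : IsSubspace L (span L S) :=
  fun l hl x hx y hy hxy h1 h2 _ hz T hT => hT.2 l hl x (hx T hT) y (hy T hT) hxy h1 h2 hz

theorem subset_span (S : Set X) : S ⊆ span L S := fun _ hx _ hT => hT.1 hx

theorem model_auto {Y : Type v} [DecidableEq Y] {M : Set (Set Y)} (th : Y → Y → Y)
    (hM : ∀ l, l ∈ M ↔ ∃ u v, th u v ≠ u ∧ l = {w | w = u ∨ w = v ∨ w = th u v})
    (h1 : ∀ u v, th u v ≠ u → ∀ x ∈ [u, v, th u v], ∀ y ∈ [u, v, th u v], ∀ z ∈ [u, v, th u v],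
      z ≠ x ∧ z ≠ y ∧ x ≠ y → z = th y x)
    (h2 : ∀ x y, th y x ≠ y → x ≠ y ∧ th y x ≠ x)
    (h3 : ∀ x u v, th (th u v) x = th (th u x) (th v x)) (h4 : ∀ x u v, th u x = th v x → u = v)
    (x : Y) {l : Set Y} (hl : l ∈ M) : lineMap M x '' l ∈ M := by
  have key : lineMap M x = fun y => th y x := by
    funext y
    by_cases h : ∃ z, Col M x y z
    · obtain ⟨a, b, c, d⟩ := col_lineMap h
      obtain ⟨u, v, huv, e⟩ := (hM _).1 d
      have e' : ∀ w ∈ ({x, y, lineMap M x y} : Set Y), w ∈ [u, v, th u v] := fun w hw => by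
        simpa using e.le hw
      exact h1 u v huv x (e' _ (by simp)) y (e' _ (by simp)) _ (e' _ (by simp)) ⟨a, b, c⟩
    · rw [lineMap_of_not h]
      by_contra hne
      refine h ⟨th y x, (h2 x y (Ne.symm hne)).2, Ne.symm hne, (h2 x y (Ne.symm hne)).1,
        (hM _).2 ⟨y, x, Ne.symm hne, ?_⟩⟩
      ext; simp; tauto
  obtain ⟨u, v, huv, rfl⟩ := (hM l).1 hl
  refine (hM _).2 ⟨th u x, th v x, fun e => huv (h4 x _ _ ((h3 x u v).trans e)), ?_⟩
  rw [key, ← h3]
  ext w
  simp only [Set.mem_image, Set.mem_setOf_eq]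
  constructor
  · rintro ⟨_, rfl | rfl | rfl, rfl⟩ <;> simp
  · rintro (rfl | rfl | rfl) <;> exact ⟨_, by simp, rfl⟩

set_option synthInstance.maxSize 2000 in
theorem fischer_auto (hL : IsFischerSpace L) (x : X) {l : Set X} (hl : l ∈ L) : lineMap L x '' l ∈ L := by
  by_cases hx : x ∈ l
  · obtain ⟨y, z, h, rfl⟩ := exists_col' hl (hL.2.1 l hl) hx
    rw [Set.image_insert_eq, Set.image_insert_eq, Set.image_singleton, h.lineMap_eq hL.1,
      h.swap23.lineMap_eq hL.1, lineMap_of_not fun ⟨_, h⟩ => h.2.2.1 rfl]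
    exact h.swap23.2.2.2
  by_cases h : ∃ a ∈ l, ∃ z, Col L x a z
  · obtain ⟨a, ha, z, hz⟩ := h
    have hS := span_subspace (L := L) (l ∪ {x, a, z})
    have hs := subset_span (L := L) (l ∪ {x, a, z})
    have key : ∀ {Y : Type} (M : Set (Set Y)), (∀ y, ∀ m ∈ M, lineMap M y '' m ∈ M) →
        Isomorphic (restrict L (span L (l ∪ {x, a, z}))) M → lineMap L x '' l ∈ L := by
      rintro Y M hM ⟨e, he⟩
      generalize span L (l ∪ {x, a, z}) = S at *
      let x' : S := ⟨x, hs (Or.inr (by simp))⟩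
      have e1 : Subtype.val '' (Subtype.val ⁻¹' l : Set S) = l :=
        Set.image_preimage_eq_of_subset (by rw [Subtype.range_coe]; exact fun y hy => hs (Or.inl hy))
      have := hM (e x') _ ((he _).1 (mem_restrict.2 (e1.symm ▸ hl)))
      rw [Set.image_image] at this
      simp only [← lineMap_iso (restrict_partialLinear hL.1 S) he] at this
      rw [← Set.image_image, ← he, mem_restrict, Set.image_image] at this
      simp only [lineMap_restrict hL.1 hS] at this
      rwa [← Set.image_image (lineMap L x), e1] at this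
    rcases hL.2.2 l hl _ hz.2.2.2 (fun e => hx (e ▸ by simp)) ⟨a, ha, by simp⟩ with h | h
    · exact key _ (fun y m hm => model_auto thD dual_lines (by decide +kernel) (by decide +kernel)
        (by decide +kernel) (by decide +kernel) y hm) h
    · exact key _ (fun y m hm => model_auto thA affine_lines (by decide +kernel) (by decide +kernel)
        (by decide +kernel) (by decide +kernel) y hm) h
  · rwa [Set.image_congr (f := lineMap L x) (g := id) fun a ha => lineMap_of_not fun h' => h ⟨a, ha, h'⟩,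
      Set.image_id]

theorem fischer_iso (hL : IsFischerSpace L) (x : X) :
    IsIso L L ((lineMap_invol hL.1 x).toPerm _) := by
  intro l
  refine ⟨fischer_auto hL x, fun h => ?_⟩
  have := fischer_auto hL x h
  rwa [Function.Involutive.coe_toPerm, Set.image_image, Set.image_congr (g := id)
    fun a _ => lineMap_invol hL.1 x a, Set.image_id] at this

theorem fischer_conj (hL : IsFischerSpace L) (x y : X) :
    (lineMap_invol hL.1 x).toPerm _ * (lineMap_invol hL.1 y).toPerm _ =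
      (lineMap_invol hL.1 (lineMap L x y)).toPerm _ * (lineMap_invol hL.1 x).toPerm _ :=
  Equiv.ext fun z => lineMap_iso hL.1 (fischer_iso hL x) y z

end Lines

theorem realizeEqns_Fi_Space : True := by
  have := @CA.Fi.swD.eq_1
  have := @CA.Fi.swD.eq_def
  have := @CA.Fi.swD.congr_simp
  have := @CA.Fi.thD.eq_1
  have := @CA.Fi.thD.eq_def
  have := @CA.Fi.thD.congr_simp
  have := @CA.Fi.thA.eq_1
  have := @CA.Fi.thA.eq_def
  have := @CA.Fi.thA.congr_simp
  have := @CA.Fi.ln.eq_1.{0}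
  have := @CA.Fi.ln.eq_def.{0}
  have := @CA.Fi.ln.congr_simp.{0}
  have := @CA.Fi.Col.eq_1.{0}
  have := @CA.Fi.Col.eq_def.{0}
  have := @CA.Fi.Col.congr_simp.{0}
  trivial

end CA.Fi
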