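/-
Lifting homomorphisms out of the symmetric group of degree five.
-/
import Cfsg.Agent.Fi.Words

set_option autoImplicit false

namespace CA.Fi

universe u

variable {G : Type u} [Group G]

def rulesA4 : List (List ℕ × List ℕ) :=
  [([0, 0], []), ([1, 1], []), ([2, 2], []), ([3, 3], []), ([2, 0], [0, 2]), ([3, 0], [0, 3]),
   ([3, 1], [1, 3]), ([1, 0, 1], [0, 1, 0]),
   ([2, 1, 2], [1, 2, 1]), ([3, 2, 3], [2, 3, 2]), ([2, 1, 0, 2], [1, 2, 1, 0]),
   ([3, 2, 1, 3], [2, 3, 2, 1]), ([3, 2, 1, 0, 3], [2, 3, 2, 1, 0])]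

theorem sortA4 : ∀ σ : Equiv.Perm (Fin 5), ev (adj 4) (sortWord 4 10 σ) = σ ∧
    (∀ i ∈ sortWord 4 10 σ, i < 4) ∧ ∀ i < 4,
      reduce rulesA4 60 (sortWord 4 10 (adj 4 i * σ)) =
        reduce rulesA4 60 (i :: sortWord 4 10 σ) := by
  decide +kernel

theorem exists_hom_S5 {a b c d : G} (ha : a * a = 1) (hb : b * b = 1) (hc : c * c = 1)
    (hd : d * d = 1) (hab : a * b * a = b * a * b) (hbc : b * c * b = c * b * c)
    (hcd : c * d * c = d * c * d) (hac : a * c = c * a) (had : a * d = d * a)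
    (hbd : b * d = d * b) :
    ∃ φ : Equiv.Perm (Fin 5) →* G, φ (Equiv.swap 0 1) = a ∧ φ (Equiv.swap 1 2) = b ∧
      φ (Equiv.swap 2 3) = c ∧ φ (Equiv.swap 3 4) = d := by
  let g : ℕ → G := fun i => if i = 0 then a else if i = 1 then b else if i = 2 then c else d
  have h1 : c * b * a * c = b * c * b * a := by rw [hbc, mul_assoc, hac, ← mul_assoc]
  have h2 : d * c * b * d = c * d * c * b := by rw [hcd, mul_assoc, hbd, ← mul_assoc]
  have h3 : d * c * b * a * d = c * d * c * b * a := by rw [← h2, mul_assoc, had, ← mul_assoc]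
  have hR : ∀ r ∈ rulesA4, ev g r.1 = ev g r.2 := by
    simp [rulesA4, g, ha, hb, hc, hd, ← mul_assoc, hab, hbc, hcd, hac, had, hbd, h1, h2, h3]
  obtain ⟨φ, hφ⟩ := exists_hom_of_words (adj 4) g 4 (sortWord 4 10) (fun h => (sortA4 h).1)
    (fun h => (sortA4 h).2.1) rfl (fun i hi h => ev_eq_of_reduce hR 60 ((sortA4 h).2.2 i hi))
  exact ⟨φ, hφ 0 (by norm_num), hφ 1 (by norm_num), hφ 2 (by norm_num), hφ 3 (by norm_num)⟩

theorem realizeEqns_Fi_WordsS5 : True := by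
  have := @CA.Fi.rulesA4.eq_1
  have := @CA.Fi.rulesA4.eq_def
  have := @CA.Fi.rulesA4.congr_simp
  trivial

end CA.Fi
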